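/-
S2755 [Sec]: abstract facts on sections (`Cfsg.Involves`).
(a) `not_involves_s4_of_abelian`: all Sylow 2-subgroups abelian ⇒ S₄-free.
(b) `not_involves_s4_of_norm`: the `2`-elements of `N_G(T)` lie in a `2`-subgroup for each `2`-subgroup `T ≠ 1` ⇒ S₄-free.
(c) `not_involves_s3_of_not_dvd`, `not_involves_s4_of_not_dvd`: `3 ∤ |G|`.
(d) `involves_s3_of_inverted`: `x` of order `3` inverted by an involution.
(e) `exists_of_involves_s3`: `S₃` involved ⇒ a `2`-element acts nontrivially on a nontrivial `3`-subgroup it normalizes.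
Transport: `Involves.of_equiv`, `involves_of_surj`, `exists_surj_of_involves`.
-/
import Cfsg.Prelude.Def_LocalEven

set_option autoImplicit false
set_option linter.style.haveILetI false
set_option linter.unusedSectionVars false

namespace Cfsg.Agent.Lib.Gold.Sec

open Subgroup Cfsg

universe u v w

variable {G : Type u} [Group G] {X : Type v} [Group X]

/-- A surjective homomorphism from a subgroup gives a section. -/
theorem involves_of_surj (K : Subgroup G) (φ : ↥K →* X) (hφ : Function.Surjective φ) :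
    Cfsg.Involves X G := by
  have e : (φ.ker.map K.subtype).subgroupOf K = φ.ker :=
    Subgroup.comap_map_eq_self_of_injective K.subtype_injective _
  haveI hn : ((φ.ker.map K.subtype).subgroupOf K).Normal := by rw [e]; infer_instance
  exact ⟨K, φ.ker.map K.subtype, hn,
    ⟨(QuotientGroup.quotientMulEquivOfEq e).trans (QuotientGroup.quotientKerEquivOfSurjective φ hφ)⟩⟩

/-- A section gives a surjective homomorphism from a subgroup. -/
theorem exists_surj_of_involves (h : Cfsg.Involves X G) :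
    ∃ (K : Subgroup G) (φ : ↥K →* X), Function.Surjective φ := by
  obtain ⟨K, R, hn, ⟨e⟩⟩ := h
  refine ⟨K, e.toMonoidHom.comp (QuotientGroup.mk' (R.subgroupOf K)), ?_⟩
  exact e.surjective.comp (QuotientGroup.mk'_surjective _)

/-- Transport along an isomorphism of the big group. -/
theorem Involves.of_equiv {G' : Type w} [Group G'] (e : G ≃* G') (h : Cfsg.Involves X G) :
    Cfsg.Involves X G' := by
  obtain ⟨K, φ, hφ⟩ := exists_surj_of_involves h
  let K' : Subgroup G' := K.map e.toMonoidHom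
  let ι : ↥K' ≃* ↥K := (K.equivMapOfInjective e.toMonoidHom e.injective).symm
  exact involves_of_surj K' (φ.comp ι.toMonoidHom) (hφ.comp ι.surjective)

/-- Transport along an isomorphism of the small group. -/
theorem Involves.of_equiv_left {X' : Type w} [Group X'] (e : X ≃* X') (h : Cfsg.Involves X G) :
    Cfsg.Involves X' G := by
  obtain ⟨K, φ, hφ⟩ := exists_surj_of_involves h
  exact involves_of_surj K (e.toMonoidHom.comp φ) (e.surjective.comp hφ)

section Finite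

variable [Finite G]

/-- A subgroup minimal with a surjection onto `X`. -/
theorem exists_min (h : Cfsg.Involves X G) :
    ∃ (H : Subgroup G) (φ : ↥H →* X), Function.Surjective φ ∧
      ∀ A : Subgroup ↥H, A.map φ = ⊤ → A = ⊤ := by
  obtain ⟨K, φ₀, hφ₀⟩ := exists_surj_of_involves h
  let 𝒮 : Set (Subgroup G) := {K | ∃ φ : ↥K →* X, Function.Surjective φ}
  have hwf : WellFounded ((· < ·) : Subgroup G → Subgroup G → Prop) := wellFounded_lt
  obtain ⟨H, ⟨φ, hφ⟩, hmin⟩ := hwf.has_min 𝒮 ⟨K, φ₀, hφ₀⟩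
  refine ⟨H, φ, hφ, fun A hA => ?_⟩
  have hle : A.map H.subtype ≤ H := Subgroup.map_subtype_le A
  have hmem : A.map H.subtype ∈ 𝒮 := by
    refine ⟨φ.comp (Subgroup.inclusion hle), fun x => ?_⟩
    have hx : x ∈ A.map φ := by rw [hA]; trivial
    obtain ⟨a, ha, rfl⟩ := hx
    exact ⟨⟨a.1, a, ha, rfl⟩, rfl⟩
  have heq : A.map H.subtype = H := by
    by_contra hne
    exact hmin _ hmem (lt_of_le_of_ne hle hne)
  rw [eq_top_iff]
  intro a _
  have : (a : G) ∈ A.map H.subtype := by rw [heq]; exact a.2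
  obtain ⟨b, hb, hba⟩ := this
  have : b = a := Subtype.ext hba
  rwa [← this]

end Finite

/-- Frattini, with images: `Q` is a `p`-subgroup over `V`, and `N(Q)` maps onto `X`. -/
theorem frattini_image {Γ : Type u} [Group Γ] [Finite Γ] {p : ℕ} [Fact p.Prime] (φ : Γ →* X)
    (hφ : Function.Surjective φ) (V : Subgroup X) [V.Normal] (hV : IsPGroup p V) :
    ∃ Q : Subgroup Γ, IsPGroup p Q ∧ Q.map φ = V ∧ (normalizer (Q : Set Γ)).map φ = ⊤ := by
  let M : Subgroup Γ := V.comap φ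
  haveI hM : M.Normal := Subgroup.Normal.comap inferInstance φ
  obtain ⟨P⟩ : Nonempty (Sylow p ↥M) := Sylow.nonempty
  let Q : Subgroup Γ := (P : Subgroup ↥M).map M.subtype
  let φ₁ : ↥M →* ↥V := (φ.comp M.subtype).codRestrict V fun m => m.2
  have hφ₁ : Function.Surjective φ₁ := by
    rintro ⟨v, hv⟩
    obtain ⟨g, hg⟩ := hφ v
    refine ⟨⟨g, ?_⟩, Subtype.ext hg⟩
    show φ g ∈ V
    rw [hg]; exact hv
  have htop : (P.mapSurjective hφ₁ : Subgroup ↥V) = ⊤ := by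
    have htp : IsPGroup p ↥(⊤ : Subgroup ↥V) := fun g => by
      obtain ⟨k, hk⟩ := hV g.1
      exact ⟨k, Subtype.ext hk⟩
    exact ((P.mapSurjective hφ₁).is_maximal' htp le_top).symm
  have hQV : Q.map φ = V := by
    apply le_antisymm
    · rintro _ ⟨q, ⟨m, _, rfl⟩, rfl⟩
      exact m.2
    · intro v hv
      have h1 : (⟨v, hv⟩ : ↥V) ∈ (P.mapSurjective hφ₁ : Subgroup ↥V) := by rw [htop]; trivial
      obtain ⟨m, hm, hmv⟩ := h1
      exact ⟨m.1, ⟨m, hm, rfl⟩, congrArg Subtype.val hmv⟩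
  refine ⟨Q, P.isPGroup'.map M.subtype, hQV, ?_⟩
  rw [eq_top_iff]
  intro x _
  obtain ⟨g, rfl⟩ := hφ x
  have hg : g ∈ ((normalizer (Q : Set Γ) ⊔ M : Subgroup Γ) : Set Γ) := by
    have := Sylow.normalizer_sup_eq_top (p := p) P
    have h2 : normalizer (Q : Set Γ) ⊔ M = ⊤ := this
    rw [h2]; trivial
  rw [Subgroup.mul_normal] at hg
  obtain ⟨n, hn, m, hm, rfl⟩ := Set.mem_mul.mp hg
  have hmV : φ m ∈ Q.map φ := by rw [hQV]; exact hm
  obtain ⟨q, hq, hqm⟩ := hmV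
  refine ⟨n * q, (normalizer (Q : Set Γ)).mul_mem hn (Subgroup.le_normalizer hq), ?_⟩
  rw [map_mul, map_mul, hqm]

/-- A power of `g` is a `2`-element with the same image, if the image of `g` is an involution. -/
theorem exists_two_pow {Γ : Type u} [Group Γ] [Finite Γ] (φ : Γ →* X) {g : Γ} (hc : φ g * φ g = 1) :
    ∃ m : ℕ, φ (g ^ m) = φ g ∧ ∃ k : ℕ, (g ^ m) ^ 2 ^ k = 1 := by
  obtain ⟨k, m, hm, hkm⟩ := Nat.exists_eq_two_pow_mul_odd (orderOf_pos g).ne'
  refine ⟨m, ?_, k, ?_⟩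
  · rw [map_pow]
    obtain ⟨j, rfl⟩ := hm
    rw [pow_succ, pow_mul, pow_two, hc, one_pow, one_mul]
  · rw [← pow_mul, mul_comm, ← hkm, pow_orderOf_eq_one]

/-- Lifting an involution to a `2`-element. -/
theorem exists_two_lift {Γ : Type u} [Group Γ] [Finite Γ] (φ : Γ →* X) (hφ : Function.Surjective φ)
    {c : X} (hc : c * c = 1) : ∃ y : Γ, φ y = c ∧ ∃ k : ℕ, y ^ 2 ^ k = 1 := by
  obtain ⟨g, rfl⟩ := hφ c
  obtain ⟨m, h1, h2⟩ := exists_two_pow φ hc
  exact ⟨g ^ m, h1, h2⟩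

/-- (b), general form. -/
theorem not_involves_of_norm [Finite G] {V : Subgroup X} [V.Normal] (hV : IsPGroup 2 V) (hV1 : V ≠ ⊥)
    {a b : X} (ha : a * a = 1) (hb : b * b = 1) (hab : (a * b) ^ 3 = 1) (hab1 : a * b ≠ 1)
    (hN : ∀ T : Subgroup G, IsPGroup 2 T → T ≠ ⊥ → ∃ W : Subgroup G, IsPGroup 2 W ∧
      ∀ x ∈ normalizer (T : Set G), (∃ k : ℕ, x ^ 2 ^ k = 1) → x ∈ W) :
    ¬ Cfsg.Involves X G := by
  intro h
  obtain ⟨H, φ, hφ, hmin⟩ := exists_min h
  haveI : Fact (Nat.Prime 2) := ⟨Nat.prime_two⟩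
  obtain ⟨Q, hQ, hQV, hNQ⟩ := frattini_image (p := 2) φ hφ V hV
  have hNtop : normalizer (Q : Set ↥H) = ⊤ := hmin _ hNQ
  let T : Subgroup G := Q.map H.subtype
  have hT : IsPGroup 2 T := hQ.map H.subtype
  have hT1 : T ≠ ⊥ := by
    intro hb0
    have hQ0 : Q = ⊥ := by
      rw [eq_bot_iff]
      intro q hq
      have : (q : G) ∈ T := ⟨q, hq, rfl⟩
      rw [hb0, Subgroup.mem_bot] at this
      rw [Subgroup.mem_bot]; exact Subtype.ext this
    apply hV1
    rw [← hQV, hQ0, Subgroup.map_bot]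
  obtain ⟨W, hW, hWN⟩ := hN T hT hT1
  have hnorm : ∀ h : ↥H, (h : G) ∈ normalizer (T : Set G) := by
    intro h
    have h1 : h ∈ normalizer (Q : Set ↥H) := by rw [hNtop]; trivial
    exact Subgroup.le_normalizer_map H.subtype ⟨h, h1, rfl⟩
  obtain ⟨u, hu, k, hk⟩ := exists_two_lift φ hφ ha
  obtain ⟨v, hv, l, hl⟩ := exists_two_lift φ hφ hb
  have huW : (u : G) ∈ W := hWN _ (hnorm u) ⟨k, by exact_mod_cast congrArg Subtype.val hk⟩
  have hvW : (v : G) ∈ W := hWN _ (hnorm v) ⟨l, by exact_mod_cast congrArg Subtype.val hl⟩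
  obtain ⟨j, hj⟩ := hW ⟨(u : G) * v, W.mul_mem huW hvW⟩
  have hj' : (u * v) ^ 2 ^ j = 1 := by
    apply Subtype.ext
    have := congrArg Subtype.val hj
    simpa using this
  have himg : (a * b) ^ 2 ^ j = 1 := by
    have := congrArg φ hj'
    simpa [hu, hv] using this
  have hg := (pow_gcd_eq_one).2 ⟨hab, himg⟩
  have hco : Nat.gcd 3 (2 ^ j) = 1 :=
    (Nat.Coprime.pow_right j (by norm_num : Nat.Coprime 3 2))
  rw [hco, pow_one] at hg
  exact hab1 hg

/-- The elements of `V₄`. -/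
def v4Set : Finset (Equiv.Perm (Fin 4)) :=
  {1, Equiv.swap 0 1 * Equiv.swap 2 3, Equiv.swap 0 2 * Equiv.swap 1 3, Equiv.swap 0 3 * Equiv.swap 1 2}

/-- `V₄`. -/
def v4 : Subgroup (Equiv.Perm (Fin 4)) where
  carrier := {x | x ∈ v4Set}
  mul_mem' := by
    have : ∀ x ∈ v4Set, ∀ y ∈ v4Set, x * y ∈ v4Set := by decide +kernel
    exact fun {a b} ha hb => this a ha b hb
  one_mem' := by
    show (1 : Equiv.Perm (Fin 4)) ∈ v4Set
    decide +kernel
  inv_mem' := by
    have : ∀ x ∈ v4Set, x⁻¹ ∈ v4Set := by decide +kernel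
    exact fun {a} ha => this a ha

instance v4_normal : v4.Normal := by
  have : ∀ g : Equiv.Perm (Fin 4), ∀ x ∈ v4Set, g * x * g⁻¹ ∈ v4Set := by decide +kernel
  exact ⟨fun x hx g => this g x hx⟩

theorem v4_isPGroup : IsPGroup 2 v4 := by
  have : ∀ x ∈ v4Set, x ^ 2 ^ 1 = 1 := by decide +kernel
  intro g
  exact ⟨1, Subtype.ext (this g.1 g.2)⟩

theorem v4_ne_bot : v4 ≠ ⊥ := by
  intro h
  have h1 : (Equiv.swap (0 : Fin 4) 1 * Equiv.swap 2 3) ∈ v4 := by
    show _ ∈ v4Set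
    decide +kernel
  rw [h, Subgroup.mem_bot] at h1
  revert h1
  decide +kernel

/-- (b): `S₄`-free if the `2`-elements of `N_G(T)` lie in a `2`-subgroup, for every `2`-subgroup `T ≠ 1`
(e.g. if `N_G(T)` has a normal Sylow `2`-subgroup). -/
theorem not_involves_s4_of_norm [Finite G]
    (hN : ∀ T : Subgroup G, IsPGroup 2 T → T ≠ ⊥ → ∃ W : Subgroup G, IsPGroup 2 W ∧
      ∀ x ∈ normalizer (T : Set G), (∃ k : ℕ, x ^ 2 ^ k = 1) → x ∈ W) :
    ¬ Cfsg.Involves (Equiv.Perm (Fin 4)) G :=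
  not_involves_of_norm (V := v4) v4_isPGroup v4_ne_bot (a := Equiv.swap 0 1) (b := Equiv.swap 1 2)
    (by decide +kernel) (by decide +kernel) (by decide +kernel) (by decide +kernel) hN

/-- A `p`-subgroup `D` of `X` is the image of a `p`-subgroup. -/
theorem exists_pgroup_image {Γ : Type u} [Group Γ] [Finite Γ] {p : ℕ} [Fact p.Prime] (φ : Γ →* X)
    (hφ : Function.Surjective φ) (D : Subgroup X) (hD : IsPGroup p D) :
    ∃ Q : Subgroup Γ, IsPGroup p Q ∧ Q.map φ = D := by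
  let M : Subgroup Γ := D.comap φ
  obtain ⟨P⟩ : Nonempty (Sylow p ↥M) := Sylow.nonempty
  let φ₁ : ↥M →* ↥D := (φ.comp M.subtype).codRestrict D fun m => m.2
  have hφ₁ : Function.Surjective φ₁ := by
    rintro ⟨v, hv⟩
    obtain ⟨g, hg⟩ := hφ v
    refine ⟨⟨g, ?_⟩, Subtype.ext hg⟩
    show φ g ∈ D
    rw [hg]; exact hv
  have htop : (P.mapSurjective hφ₁ : Subgroup ↥D) = ⊤ := by
    have htp : IsPGroup p ↥(⊤ : Subgroup ↥D) := fun g => by
      obtain ⟨k, hk⟩ := hD g.1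
      exact ⟨k, Subtype.ext hk⟩
    exact ((P.mapSurjective hφ₁).is_maximal' htp le_top).symm
  refine ⟨(P : Subgroup ↥M).map M.subtype, P.isPGroup'.map M.subtype, ?_⟩
  apply le_antisymm
  · rintro _ ⟨q, ⟨m, _, rfl⟩, rfl⟩
    exact m.2
  · intro v hv
    have h1 : (⟨v, hv⟩ : ↥D) ∈ (P.mapSurjective hφ₁ : Subgroup ↥D) := by rw [htop]; trivial
    obtain ⟨m, hm, hmv⟩ := h1
    exact ⟨m.1, ⟨m, hm, rfl⟩, congrArg Subtype.val hmv⟩

/-- (a), general form. -/
theorem not_involves_of_abelian [Finite G] {D : Subgroup X} (hD : IsPGroup 2 D) {a b : X} (ha : a ∈ D)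
    (hb : b ∈ D) (hab : a * b ≠ b * a)
    (hS : ∀ P : Sylow 2 G, ∀ x ∈ (P : Subgroup G), ∀ y ∈ (P : Subgroup G), x * y = y * x) :
    ¬ Cfsg.Involves X G := by
  intro h
  obtain ⟨K, φ, hφ⟩ := exists_surj_of_involves h
  haveI : Fact (Nat.Prime 2) := ⟨Nat.prime_two⟩
  obtain ⟨Q, hQ, hQD⟩ := exists_pgroup_image (p := 2) φ hφ D hD
  have hQG : IsPGroup 2 (Q.map K.subtype) := hQ.map K.subtype
  obtain ⟨S, hS'⟩ := hQG.exists_le_sylow
  have ha' : a ∈ Q.map φ := by rw [hQD]; exact ha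
  have hb' : b ∈ Q.map φ := by rw [hQD]; exact hb
  obtain ⟨u, hu, rfl⟩ := ha'
  obtain ⟨v, hv, rfl⟩ := hb'
  have hc := hS S _ (hS' ⟨u, hu, rfl⟩) _ (hS' ⟨v, hv, rfl⟩)
  have hc' : u * v = v * u := Subtype.ext hc
  apply hab
  rw [← map_mul, hc', map_mul]

/-- (a): all Sylow `2`-subgroups abelian ⇒ `S₄`-free. -/
theorem not_involves_s4_of_abelian [Finite G]
    (hS : ∀ P : Sylow 2 G, ∀ x ∈ (P : Subgroup G), ∀ y ∈ (P : Subgroup G), x * y = y * x) :
    ¬ Cfsg.Involves (Equiv.Perm (Fin 4)) G := by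
  let c : Equiv.Perm (Fin 4) := Equiv.swap 0 1 * Equiv.swap 2 3
  let D : Subgroup (Equiv.Perm (Fin 4)) := centralizer {c}
  have hp : ∀ x : Equiv.Perm (Fin 4), c * x = x * c → x ^ 2 ^ 3 = 1 := by decide +kernel
  have hD : IsPGroup 2 D := fun g => by
    refine ⟨3, Subtype.ext (hp g.1 ?_)⟩
    exact Subgroup.mem_centralizer_singleton_iff.mp g.2 ▸ rfl
  have ha : (Equiv.swap 0 1 : Equiv.Perm (Fin 4)) ∈ D := by
    rw [Subgroup.mem_centralizer_singleton_iff]
    decide +kernel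
  have hb : (Equiv.swap 0 2 * Equiv.swap 1 3 : Equiv.Perm (Fin 4)) ∈ D := by
    rw [Subgroup.mem_centralizer_singleton_iff]
    decide +kernel
  exact not_involves_of_abelian hD ha hb (by decide +kernel) hS

/-- (c), general form. -/
theorem not_involves_of_not_dvd [Finite G] {q : ℕ} (hq : q ∣ Nat.card X) (hG : ¬ q ∣ Nat.card G) :
    ¬ Cfsg.Involves X G := by
  intro h
  obtain ⟨K, φ, hφ⟩ := exists_surj_of_involves h
  exact hG (hq.trans ((Subgroup.card_dvd_of_surjective φ hφ).trans (Subgroup.card_subgroup_dvd_card K)))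

/-- (c): `3 ∤ |G|` ⇒ `S₃`-free. -/
theorem not_involves_s3_of_not_dvd [Finite G] (hG : ¬ 3 ∣ Nat.card G) :
    ¬ Cfsg.Involves (Equiv.Perm (Fin 3)) G :=
  not_involves_of_not_dvd (q := 3) (by simp [Nat.card_eq_fintype_card, Fintype.card_perm]; decide) hG

/-- (c): `3 ∤ |G|` ⇒ `S₄`-free. -/
theorem not_involves_s4_of_not_dvd [Finite G] (hG : ¬ 3 ∣ Nat.card G) :
    ¬ Cfsg.Involves (Equiv.Perm (Fin 4)) G :=
  not_involves_of_not_dvd (q := 3) (by simp [Nat.card_eq_fintype_card, Fintype.card_perm]; decide) hG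

/-- The exponents. -/
def s3i (σ : Equiv.Perm (Fin 3)) : ℕ := (σ 0).val
def s3j (σ : Equiv.Perm (Fin 3)) : ℕ := if σ 1 = σ 0 + 1 then 0 else 1

theorem s3_table : ∀ σ τ : Equiv.Perm (Fin 3),
    s3i (σ * τ) = (s3i σ + (if s3j σ = 0 then s3i τ else 2 * s3i τ)) % 3 ∧
      s3j (σ * τ) = (s3j σ + s3j τ) % 2 := by decide +kernel

theorem s3_ind : ∀ σ : Equiv.Perm (Fin 3), s3i σ < 3 ∧ (s3j σ = 0 ∨ s3j σ = 1) ∧
    (s3i σ = 0 → s3j σ = 0 → σ = 1) := by decide +kernel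

/-- (d): an element of order `3` inverted by an involution: `S₃` is involved. -/
theorem involves_s3_of_inverted {x t : G} (hx : x ^ 3 = 1) (hx1 : x ≠ 1) (ht : t * t = 1)
    (hinv : t * x * t⁻¹ = x⁻¹) : Cfsg.Involves (Equiv.Perm (Fin 3)) G := by
  have hxo : orderOf x = 3 := orderOf_eq_prime hx hx1
  have ht2 : t ^ 2 = 1 := by rw [pow_two, ht]
  have htx : t * x = x ^ 2 * t := by
    have h1 : t * x = x⁻¹ * t := by rw [← hinv]; group
    have h2 : x⁻¹ = x ^ 2 := by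
      rw [inv_eq_iff_mul_eq_one, ← pow_succ']; exact hx
    rw [h1, h2]
  have htxk : ∀ k : ℕ, t * x ^ k = x ^ (2 * k) * t := by
    intro k
    induction k with
    | zero => simp
    | succ k ih =>
      rw [pow_succ, ← mul_assoc, ih, mul_assoc, htx, ← mul_assoc, ← pow_add]
      congr 2
  have hkey : ∀ (i j k l : ℕ), (j = 0 ∨ j = 1) →
      x ^ i * t ^ j * (x ^ k * t ^ l) = x ^ (i + (if j = 0 then k else 2 * k)) * t ^ (j + l) := by
    rintro i j k l (rfl | rfl)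
    · simp [pow_add, mul_assoc]
    · simp only [pow_one, one_ne_zero, if_false, pow_add, mul_assoc]
      rw [← mul_assoc t, htxk]
      group
  let f : Equiv.Perm (Fin 3) → G := fun σ => x ^ s3i σ * t ^ s3j σ
  have hxmod : ∀ a : ℕ, x ^ (a % 3) = x ^ a := fun a => by
    have := pow_mod_orderOf x a; rwa [hxo] at this
  have htmod : ∀ a : ℕ, t ^ (a % 2) = t ^ a := fun a => by
    conv_rhs => rw [← Nat.mod_add_div a 2, pow_add, pow_mul, ht2, one_pow, mul_one]
  have hmul : ∀ σ τ, f (σ * τ) = f σ * f τ := by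
    intro σ τ
    show x ^ s3i (σ * τ) * t ^ s3j (σ * τ) = x ^ s3i σ * t ^ s3j σ * (x ^ s3i τ * t ^ s3j τ)
    obtain ⟨h1, h2⟩ := s3_table σ τ
    rw [h1, h2, hxmod, htmod, hkey _ _ _ _ (s3_ind σ).2.1]
  let ψ : Equiv.Perm (Fin 3) →* G := MonoidHom.mk' f hmul
  have hinj : Function.Injective ψ := by
    rw [injective_iff_map_eq_one]
    intro σ hσ
    have hσ' : x ^ s3i σ * t ^ s3j σ = 1 := hσ
    obtain ⟨h3, hj, h0⟩ := s3_ind σ
    rcases hj with hj | hj
    · rw [hj, pow_zero, mul_one] at hσ'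
      have hd := orderOf_dvd_of_pow_eq_one hσ'
      rw [hxo] at hd
      have hi0 : s3i σ = 0 := Nat.eq_zero_of_dvd_of_lt hd h3
      exact h0 hi0 hj
    · exfalso
      rw [hj, pow_one] at hσ'
      have htp : t = (x ^ s3i σ)⁻¹ := eq_inv_of_mul_eq_one_right hσ'
      have hcomm : t * x = x * t := by
        rw [htp]
        exact ((Commute.refl x).pow_left _).inv_left
      have : x⁻¹ = x := by rw [← hinv, hcomm]; group
      have h2 : x ^ 2 = 1 := by
        rw [pow_two]; nth_rewrite 1 [← this]; group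
      have hd := orderOf_dvd_of_pow_eq_one h2
      rw [hxo] at hd
      omega
  exact involves_of_surj ψ.range (MonoidHom.ofInjective hinj).symm.toMonoidHom
    (MonoidHom.ofInjective hinj).symm.surjective

/-- (e): `S₃` involved ⇒ a `2`-element normalizes a nontrivial `3`-subgroup and acts nontrivially on it. -/
theorem exists_of_involves_s3 [Finite G] (h : Cfsg.Involves (Equiv.Perm (Fin 3)) G) :
    ∃ Q : Subgroup G, IsPGroup 3 Q ∧ Q ≠ ⊥ ∧ ∃ t ∈ normalizer (Q : Set G), (∃ k : ℕ, t ^ 2 ^ k = 1) ∧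
      ∃ y ∈ Q, t * y * t⁻¹ ≠ y := by
  obtain ⟨K, φ, hφ⟩ := exists_surj_of_involves h
  haveI : Fact (Nat.Prime 3) := ⟨Nat.prime_three⟩
  have hp3 : ∀ g : Equiv.Perm (Fin 3), Equiv.Perm.sign g = 1 → g ^ 3 ^ 1 = 1 := by decide +kernel
  have hV : IsPGroup 3 (alternatingGroup (Fin 3)) := fun g =>
    ⟨1, Subtype.ext (hp3 g.1 g.2)⟩
  obtain ⟨Q, hQ, hQV, hNQ⟩ := frattini_image (p := 3) φ hφ (alternatingGroup (Fin 3)) hV
  let s : Equiv.Perm (Fin 3) := Equiv.swap 0 1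
  let c : Equiv.Perm (Fin 3) := Equiv.swap 0 1 * Equiv.swap 1 2
  have hs : s ∈ (normalizer (Q : Set ↥K)).map φ := by rw [hNQ]; trivial
  obtain ⟨n, hn, hns⟩ := hs
  have hss : φ n * φ n = 1 := by rw [hns]; decide +kernel
  obtain ⟨m, hm1, k, hk⟩ := exists_two_pow φ hss
  have htN : n ^ m ∈ normalizer (Q : Set ↥K) := pow_mem hn m
  have hcV : c ∈ Q.map φ := by
    rw [hQV]
    show Equiv.Perm.sign c = 1
    decide +kernel
  obtain ⟨y, hy, hyc⟩ := hcV
  have hne : n ^ m * y * (n ^ m)⁻¹ ≠ y := by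
    intro he
    have := congrArg φ he
    rw [map_mul, map_mul, map_inv, hm1, hns, hyc] at this
    revert this
    decide +kernel
  refine ⟨Q.map K.subtype, hQ.map K.subtype, ?_, ((n ^ m : ↥K) : G),
    Subgroup.le_normalizer_map K.subtype ⟨_, htN, rfl⟩, ⟨k, ?_⟩, (y : G), ⟨y, hy, rfl⟩, ?_⟩
  · intro hb
    have : (y : G) ∈ Q.map K.subtype := ⟨y, hy, rfl⟩
    rw [hb, Subgroup.mem_bot] at this
    have hy1 : y = 1 := Subtype.ext this
    apply hne
    rw [hy1]; simp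
  · exact congrArg Subtype.val hk
  · intro he
    apply hne
    apply Subtype.ext
    simpa using he

end Cfsg.Agent.Lib.Gold.Sec
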