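import Mathlib.LinearAlgebra.Projectivization.Cardinality
import Mathlib.LinearAlgebra.Projectivization.Action
import Mathlib.LinearAlgebra.Matrix.ProjectiveSpecialLinearGroup
import Mathlib.GroupTheory.PGroup
import Mathlib.GroupTheory.Perm.Fin
import Mathlib.FieldTheory.Finite.Basic
import Cfsg.Agent.Lib.Gold.Sec

/-!
# `PSL₂(F)`, `|F| = 3^(2n+1)`: two-elements normalizing a nontrivial three-subgroup are trivial
-/

set_option autoImplicit false

namespace Cfsg.Agent.Lib.Gold.L23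

open Matrix Projectivization
open scoped LinearAlgebra.Projectivization MatrixGroups

variable {F : Type*} [Field F]

local notation "PSL2" => ProjectiveSpecialLinearGroup (Fin 2) F

lemma three_pow_inj {x y : F} (h3 : (3 : F) = 0) (k : ℕ) (h : x ^ (3 ^ k) = y ^ (3 ^ k)) :
    x = y := by
  induction k with
  | zero => simpa using h
  | succ k ih =>
    apply ih
    have h' : (x ^ (3 ^ k)) ^ 3 = (y ^ (3 ^ k)) ^ 3 := by
      rw [← pow_mul, ← pow_mul, ← pow_succ]; exact h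
    have h5 : (x ^ (3 ^ k) - y ^ (3 ^ k)) ^ 3 = 0 := by
      generalize x ^ (3 ^ k) = X at *
      generalize y ^ (3 ^ k) = Y at *
      linear_combination h' + (-(X ^ 2 * Y) + X * Y ^ 2) * h3
    exact sub_eq_zero.1 ((pow_eq_zero_iff (by norm_num)).1 h5)

lemma smul_apply0 (g : SL(2, F)) (v : Fin 2 → F) :
    (g • v) 0 = g.1 0 0 * v 0 + g.1 0 1 * v 1 := by
  simp [Matrix.SpecialLinearGroup.smul_def, Matrix.mulVec, dotProduct, Fin.sum_univ_two]

lemma smul_apply1 (g : SL(2, F)) (v : Fin 2 → F) :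
    (g • v) 1 = g.1 1 0 * v 0 + g.1 1 1 * v 1 := by
  simp [Matrix.SpecialLinearGroup.smul_def, Matrix.mulVec, dotProduct, Fin.sum_univ_two]

lemma pow_smul_eigen (g : SL(2, F)) {v : Fin 2 → F} {a : F} (h : g • v = a • v) (k : ℕ) :
    (g ^ k) • v = a ^ k • v := by
  induction k with
  | zero => simp
  | succ k ih => rw [pow_succ, mul_smul, h, smul_comm, ih, smul_smul, pow_succ']

lemma center_smul (z : SL(2, F)) (hz : z ∈ Subgroup.center SL(2, F)) :
    ∃ r : F, r ^ 2 = 1 ∧ ∀ v : Fin 2 → F, z • v = r • v := by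
  obtain ⟨r, hr, hr'⟩ := Matrix.SpecialLinearGroup.mem_center_iff.1 hz
  refine ⟨r, by simpa using hr, fun v => ?_⟩
  funext i
  have h0 : z.1 0 0 = r := by rw [← hr']; simp
  have h1 : z.1 0 1 = 0 := by rw [← hr']; simp
  have h2 : z.1 1 0 = 0 := by rw [← hr']; simp
  have h3 : z.1 1 1 = r := by rw [← hr']; simp
  fin_cases i
  · show (z • v) 0 = r * v 0
    rw [smul_apply0, h0, h1]; ring
  · show (z • v) 1 = r * v 1
    rw [smul_apply1, h2, h3]; ring

lemma center_of_pow (g : SL(2, F)) {m : ℕ} (h : (g : PSL2) ^ m = 1) :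
    g ^ m ∈ Subgroup.center SL(2, F) := by
  have h' : ((g ^ m : SL(2, F)) : PSL2) = 1 := by rw [QuotientGroup.mk_pow]; exact h
  exact (QuotientGroup.eq_one_iff _).1 h'

lemma eigen_eq (h3 : (3 : F) = 0) (g : SL(2, F)) {k : ℕ} (hk : (g : PSL2) ^ (3 ^ k) = 1) :
    ∃ r : F, r ^ 2 = 1 ∧ ∀ v : Fin 2 → F, v ≠ 0 → ∀ a : F, g • v = a • v → a = r := by
  obtain ⟨r, hr, hz⟩ := center_smul (g ^ (3 ^ k)) (center_of_pow g hk)
  refine ⟨r, hr, fun v hv a ha => ?_⟩
  have h1 : a ^ (3 ^ k) • v = r • v := by rw [← pow_smul_eigen g ha, hz]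
  have h2 : a ^ (3 ^ k) = r := smul_left_injective F hv h1
  have h4 : r ^ (3 ^ k) = r := by
    obtain ⟨m, hm⟩ : Odd (3 ^ k) := Odd.pow (by decide)
    rw [hm, pow_succ, pow_mul, hr, one_pow, one_mul]
  exact three_pow_inj h3 k (h2.trans h4.symm)

lemma mem_center_of_two (g : SL(2, F)) {r : F} (hr : r ^ 2 = 1) {v w : Fin 2 → F}
    (hv : g • v = r • v) (hw : g • w = r • w) (hdet : v 0 * w 1 - v 1 * w 0 ≠ 0) :
    g ∈ Subgroup.center SL(2, F) := by
  have e0 : g.1 0 0 * v 0 + g.1 0 1 * v 1 = r * v 0 := by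
    rw [← smul_apply0, hv]; rfl
  have e1 : g.1 1 0 * v 0 + g.1 1 1 * v 1 = r * v 1 := by
    rw [← smul_apply1, hv]; rfl
  have f0 : g.1 0 0 * w 0 + g.1 0 1 * w 1 = r * w 0 := by
    rw [← smul_apply0, hw]; rfl
  have f1 : g.1 1 0 * w 0 + g.1 1 1 * w 1 = r * w 1 := by
    rw [← smul_apply1, hw]; rfl
  have h00 : g.1 0 0 = r := by
    apply mul_right_cancel₀ hdet
    linear_combination w 1 * e0 - v 1 * f0
  have h01 : g.1 0 1 = 0 := by
    apply mul_right_cancel₀ hdet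
    linear_combination v 0 * f0 - w 0 * e0
  have h10 : g.1 1 0 = 0 := by
    apply mul_right_cancel₀ hdet
    linear_combination w 1 * e1 - v 1 * f1
  have h11 : g.1 1 1 = r := by
    apply mul_right_cancel₀ hdet
    linear_combination v 0 * f1 - w 0 * e1
  refine Matrix.SpecialLinearGroup.mem_center_iff.2 ⟨r, by simpa using hr, ?_⟩
  ext i j
  fin_cases i <;> fin_cases j <;> simp [h00, h01, h10, h11]

lemma cube_mem_center (h3 : (3 : F) = 0) (g : SL(2, F)) {v : Fin 2 → F} (hv : v ≠ 0) {a : F}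
    (ha : g • v = a • v) (ha2 : a ^ 2 = 1) : g ^ 3 ∈ Subgroup.center SL(2, F) := by
  have E0 : g.1 0 0 * v 0 + g.1 0 1 * v 1 = a * v 0 := by
    rw [← smul_apply0, ha]; rfl
  have E1 : g.1 1 0 * v 0 + g.1 1 1 * v 1 = a * v 1 := by
    rw [← smul_apply1, ha]; rfl
  have D : g.1 0 0 * g.1 1 1 - g.1 0 1 * g.1 1 0 = 1 := by
    have := g.2
    rwa [Matrix.det_fin_two] at this
  set p := g.1 0 0 with hp
  set q := g.1 0 1 with hq
  set r := g.1 1 0 with hr
  set s := g.1 1 1 with hs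
  have T0 : (p + s - 2 * a) * v 0 = 0 := by
    linear_combination (1 - a * s) * E0 + a * q * E1 + a * v 0 * D - (s * v 0 - q * v 1) * ha2
  have T1 : (p + s - 2 * a) * v 1 = 0 := by
    linear_combination (1 - a * p) * E1 + a * r * E0 + a * v 1 * D + (r * v 0 - p * v 1) * ha2
  have T : p + s = 2 * a := by
    by_contra hne
    have hne' : p + s - 2 * a ≠ 0 := sub_ne_zero.2 hne
    apply hv
    funext i
    fin_cases i
    · exact (mul_eq_zero.1 T0).resolve_left hne'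
    · exact (mul_eq_zero.1 T1).resolve_left hne'
  have hs' : s = 2 * a - p := by linear_combination T
  have hqr : q * r = p * s - 1 := by linear_combination -D
  refine Matrix.SpecialLinearGroup.mem_center_iff.2 ⟨a, by simpa using ha2, ?_⟩
  have hg : (g ^ 3).1 = g.1 * g.1 * g.1 := by
    rw [Matrix.SpecialLinearGroup.coe_pow, pow_succ, pow_two]
  have h00 : (g.1 * g.1 * g.1) 0 0 = a := by
    simp only [Matrix.mul_apply, Fin.sum_univ_two]
    simp only [← hp, ← hq, ← hr, ← hs]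
    linear_combination (2 * p + s) * hqr + (p * (p + s + 2 * a) - 1) * T + (4 * p) * ha2
      + (p - a) * h3
  have h11 : (g.1 * g.1 * g.1) 1 1 = a := by
    simp only [Matrix.mul_apply, Fin.sum_univ_two]
    simp only [← hp, ← hq, ← hr, ← hs]
    linear_combination (2 * s + p) * hqr + (s * (p + s + 2 * a) - 1) * T + (4 * s) * ha2
      + (s - a) * h3
  have h01 : (g.1 * g.1 * g.1) 0 1 = 0 := by
    simp only [Matrix.mul_apply, Fin.sum_univ_two]
    simp only [← hp, ← hq, ← hr, ← hs]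
    linear_combination q * (hqr + (p + s + 2 * a) * T + 4 * ha2 + h3)
  have h10 : (g.1 * g.1 * g.1) 1 0 = 0 := by
    simp only [Matrix.mul_apply, Fin.sum_univ_two]
    simp only [← hp, ← hq, ← hr, ← hs]
    linear_combination r * (hqr + (p + s + 2 * a) * T + 4 * ha2 + h3)
  rw [hg]
  ext i j
  fin_cases i <;> fin_cases j <;> simp [h00, h01, h10, h11]

lemma eigen_of_fix (g : SL(2, F)) (p : ℙ F (Fin 2 → F)) (h : (g : PSL2) • p = p) :
    ∃ a : F, g • p.rep = a • p.rep := by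
  have h' : g • p = p := h
  rw [← Projectivization.mk_rep p] at h'
  rw [Projectivization.smul_mk, Projectivization.mk_eq_mk_iff'] at h'
  obtain ⟨a, ha⟩ := h'
  exact ⟨a, by simpa using ha.symm⟩

lemma rep_det_ne {p p' : ℙ F (Fin 2 → F)} (h : p ≠ p') :
    p.rep 0 * p'.rep 1 - p.rep 1 * p'.rep 0 ≠ 0 := by
  intro h0
  apply h
  have hv := p.rep_nonzero
  rw [← Projectivization.mk_rep p, ← Projectivization.mk_rep p', Projectivization.mk_eq_mk_iff']
  by_cases h1 : p'.rep 0 = 0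
  · have h2 : p'.rep 1 ≠ 0 := by
      intro h2
      apply p'.rep_nonzero
      funext i
      fin_cases i
      · exact h1
      · exact h2
    refine ⟨p.rep 1 / p'.rep 1, ?_⟩
    funext i
    fin_cases i
    · show p.rep 1 / p'.rep 1 * p'.rep 0 = p.rep 0
      rw [h1, mul_zero]
      rw [h1, mul_zero, sub_zero] at h0
      exact ((mul_eq_zero.1 h0).resolve_right h2).symm
    · show p.rep 1 / p'.rep 1 * p'.rep 1 = p.rep 1
      field_simp
  · refine ⟨p.rep 0 / p'.rep 0, ?_⟩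
    funext i
    fin_cases i
    · show p.rep 0 / p'.rep 0 * p'.rep 0 = p.rep 0
      field_simp
    · show p.rep 0 / p'.rep 0 * p'.rep 1 = p.rep 1
      field_simp
      linear_combination h0

/-- A nontrivial element of `3`-power order fixes at most one point. -/
lemma fix_unique (h3 : (3 : F) = 0) {x : PSL2} {k : ℕ} (hk : x ^ (3 ^ k) = 1) (hx : x ≠ 1)
    {p p' : ℙ F (Fin 2 → F)} (hp : x • p = p) (hp' : x • p' = p') : p = p' := by
  by_contra hne
  obtain ⟨g, rfl⟩ := QuotientGroup.mk_surjective x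
  obtain ⟨r, hr, hev⟩ := eigen_eq h3 g hk
  obtain ⟨a, ha⟩ := eigen_of_fix g p hp
  obtain ⟨b, hb⟩ := eigen_of_fix g p' hp'
  have ha' := hev _ p.rep_nonzero a ha
  have hb' := hev _ p'.rep_nonzero b hb
  subst ha'
  subst hb'
  apply hx
  exact (QuotientGroup.eq_one_iff _).2 (mem_center_of_two g hr ha hb (rep_det_ne hne))

/-- An element of `2`-power order fixing a point is trivial, `|F| ≡ 3 mod 4`, characteristic 3. -/
lemma eq_one_of_fix [Fintype F] (h3 : (3 : F) = 0) (hq : Fintype.card F % 4 = 3) {t : PSL2} {k : ℕ}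
    (hk : t ^ (2 ^ k) = 1) {p : ℙ F (Fin 2 → F)} (hp : t • p = p) : t = 1 := by
  obtain ⟨g, rfl⟩ := QuotientGroup.mk_surjective t
  obtain ⟨a, ha⟩ := eigen_of_fix g p hp
  obtain ⟨r, hr, hz⟩ := center_smul (g ^ (2 ^ k)) (center_of_pow g hk)
  have hv := p.rep_nonzero
  have h1 : a ^ (2 ^ k) • p.rep = r • p.rep := by rw [← pow_smul_eigen g ha, hz]
  have h2 : a ^ (2 ^ k) = r := smul_left_injective F hv h1
  have ha0 : a ≠ 0 := by
    rintro rfl
    rw [zero_pow (by positivity)] at h2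
    rw [← h2] at hr
    simp at hr
  have h4 : a ^ (2 ^ (k + 1)) = 1 := by
    rw [pow_succ, pow_mul, h2, hr]
  have h5 : a ^ (Fintype.card F - 1) = 1 := FiniteField.pow_card_sub_one_eq_one a ha0
  have h7 : orderOf a ∣ 2 := by
    obtain ⟨m, hm⟩ : ∃ m, Fintype.card F - 1 = 2 * (2 * m + 1) := ⟨Fintype.card F / 4, by omega⟩
    have d1 : orderOf a ∣ 2 ^ (k + 1) := orderOf_dvd_of_pow_eq_one h4
    have d2 : orderOf a ∣ 2 * (2 * m + 1) := hm ▸ orderOf_dvd_of_pow_eq_one h5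
    have hc : Nat.Coprime (2 ^ (k + 1)) (2 * m + 1) := Nat.Coprime.pow_left _ (by simp)
    exact (Nat.Coprime.coprime_dvd_left d1 hc).dvd_of_dvd_mul_right d2
  have ha2 : a ^ 2 = 1 := orderOf_dvd_iff_pow_eq_one.1 h7
  have hc3 := cube_mem_center h3 g hv ha ha2
  have ht3 : (g : PSL2) ^ 3 = 1 := by
    rw [← QuotientGroup.mk_pow]
    exact (QuotientGroup.eq_one_iff _).2 hc3
  have d1 : orderOf (g : PSL2) ∣ 3 := orderOf_dvd_of_pow_eq_one ht3
  have d2 : orderOf (g : PSL2) ∣ 2 ^ k := orderOf_dvd_of_pow_eq_one hk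
  have hc : Nat.Coprime 3 (2 ^ k) := Nat.Coprime.pow_right _ (by decide)
  exact orderOf_eq_one_iff.1 (Nat.Coprime.eq_one_of_dvd (Nat.Coprime.coprime_dvd_left d1 hc) d2)

lemma card_facts [Fintype F] {n : ℕ} (hF : Fintype.card F = 3 ^ (2 * n + 1)) :
    (3 : F) = 0 ∧ Fintype.card F % 4 = 3 ∧ ¬ 3 ∣ Nat.card (ℙ F (Fin 2 → F)) := by
  refine ⟨?_, ?_, ?_⟩
  · have h := Nat.cast_card_eq_zero F
    rw [hF] at h
    push_cast at h
    exact (pow_eq_zero_iff (by omega)).1 h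
  · rw [hF, pow_succ, pow_mul]
    have : (3 ^ 2) ^ n % 4 = 1 := by
      rw [Nat.pow_mod]; norm_num
    omega
  · have hc : Nat.card (ℙ F (Fin 2 → F)) = Nat.card F + 1 :=
      Projectivization.card_of_finrank_two F (Fin 2 → F) (by simp)
    rw [hc, Nat.card_eq_fintype_card, hF, pow_succ]
    omega

/-- In `PSL₂(F)`, `|F| = 3^(2n+1)`: an element of `2`-power order normalizing a nontrivial
`3`-subgroup is trivial. -/
theorem two_elt_normalizer_eq_one [Fintype F] {n : ℕ} (hF : Fintype.card F = 3 ^ (2 * n + 1))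
    {Q : Subgroup PSL2} (hQ3 : IsPGroup 3 Q) (hQ : Q ≠ ⊥) {t : PSL2}
    (ht : t ∈ Subgroup.normalizer (Q : Set PSL2)) {k : ℕ} (ht2 : t ^ (2 ^ k) = 1) : t = 1 := by
  obtain ⟨h3, hq, hd⟩ := card_facts hF
  haveI : Fact (Nat.Prime 3) := ⟨Nat.prime_three⟩
  obtain ⟨p₀, hp₀⟩ := hQ3.nonempty_fixed_point_of_prime_not_dvd_card (ℙ F (Fin 2 → F)) hd
  obtain ⟨x, hxQ, hx1⟩ := (Subgroup.bot_or_exists_ne_one Q).resolve_left hQ
  have hfix : ∀ y ∈ Q, y • p₀ = p₀ := fun y hy => hp₀ ⟨y, hy⟩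
  obtain ⟨k3, hk3⟩ := hQ3 ⟨x, hxQ⟩
  have hk3' : x ^ (3 ^ k3) = 1 := by
    have := congrArg Subtype.val hk3
    simpa using this
  have htn := Subgroup.mem_normalizer_iff.1 ht
  have hxt : t⁻¹ * x * t ∈ Q := by
    have := (htn (t⁻¹ * x * t)).1
    by_contra hno
    have h2 : t * (t⁻¹ * x * t) * t⁻¹ ∈ Q := by
      have e : t * (t⁻¹ * x * t) * t⁻¹ = x := by group
      rw [e]; exact hxQ
    exact hno ((htn _).2 h2)
  have hfix2 : x • (t • p₀) = t • p₀ := by
    have h5 := hfix _ hxt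
    calc x • (t • p₀) = t • ((t⁻¹ * x * t) • p₀) := by
          rw [← mul_smul, ← mul_smul]; congr 1; group
      _ = t • p₀ := by rw [h5]
  have hsame : t • p₀ = p₀ := fix_unique h3 hk3' hx1 hfix2 (hfix x hxQ)
  exact eq_one_of_fix h3 hq ht2 hsame

/-- **[L2-3]** `S₃` is not involved in `PSL₂(F)`, `|F| = 3^(2n+1)`. -/
theorem not_involves_s3 [Fintype F] {n : ℕ} (hF : Fintype.card F = 3 ^ (2 * n + 1)) :
    ¬ Cfsg.Involves (Equiv.Perm (Fin 3)) PSL2 := by
  intro h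
  haveI : Finite (SL(2, F)) := Finite.of_injective (fun g => g.1) Subtype.val_injective
  obtain ⟨Q, hQ3, hQ, t, ht, ⟨k, hk⟩, y, -, hy⟩ :=
    Cfsg.Agent.Lib.Gold.Sec.exists_of_involves_s3 h
  have h1 := two_elt_normalizer_eq_one hF hQ3 hQ ht hk
  apply hy
  rw [h1]
  simp

end Cfsg.Agent.Lib.Gold.L23
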