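import Cfsg.Agent.Lib.PLocal.BorelTwo
import Cfsg.Agent.Lib.SThreeFree.Lift

/-!
S2755, module [L2-even]: `PSL₂(F)`, `F` of characteristic two: abelian Sylow `2`-subgroups, and `S₃` is involved.
-/

set_option autoImplicit false
set_option linter.unusedSectionVars false
set_option linter.unusedVariables false
set_option linter.style.haveILetI false

namespace Cfsg.Agent.Lib.Gold.L2Even

open Subgroup Cfsg Matrix Cfsg.Agent.Lib.PLocal.BorelTwo
open scoped MatrixGroups

variable {F : Type*} [Field F] [Fintype F]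

/-- The root group `uP` is abelian. -/
lemma uP_comm {a b : PSL(2, F)} (ha : a ∈ uP F) (hb : b ∈ uP F) : a * b = b * a := by
  obtain ⟨u, hu, rfl⟩ := ha
  obtain ⟨v, hv, rfl⟩ := hb
  rw [← map_mul, ← map_mul, uu_ent u hu, uu_ent v hv, uu_mul, uu_mul, add_comm]

/-- Sylow `p`-subgroups of `PSL₂(F)`, `F` of characteristic `p`, are abelian. -/
theorem sylow_abelian_p {p : ℕ} [hp : Fact p.Prime] [CharP F p] (P : Sylow p (PSL(2, F))) (a b : P) :
    a * b = b * a := by
  obtain ⟨Q, hQ⟩ := (uP_isPGroup (F := F) (p := p)).exists_le_sylow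
  have hQe : (Q : Subgroup (PSL(2, F))) = uP F := uP_maximal (p := p) Q.isPGroup' hQ
  obtain ⟨g, hg⟩ := MulAction.exists_smul_eq (PSL(2, F)) P Q
  have hmem : ∀ x ∈ (P : Subgroup (PSL(2, F))), g * x * g⁻¹ ∈ uP F := by
    intro x hx
    rw [← hQe, ← hg, Sylow.coe_subgroup_smul]
    exact Subgroup.smul_mem_pointwise_smul x (MulAut.conj g) (P : Subgroup (PSL(2, F))) hx
  have h := uP_comm (hmem a a.2) (hmem b b.2)
  apply Subtype.ext
  have e : g * ((a : PSL(2, F)) * b) * g⁻¹ = g * ((b : PSL(2, F)) * a) * g⁻¹ := by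
    calc g * ((a : PSL(2, F)) * b) * g⁻¹ = (g * a * g⁻¹) * (g * b * g⁻¹) := by group
      _ = (g * b * g⁻¹) * (g * a * g⁻¹) := h
      _ = _ := by group
  exact mul_left_cancel (mul_right_cancel e)

/-- Sylow `2`-subgroups of `PSL₂(F)`, `|F|` a power of two, are abelian. -/
theorem sylow_abelian {n : ℕ} (hn : 1 ≤ n) (hF : Fintype.card F = 2 ^ n) (P : Sylow 2 (PSL(2, F))) (a b : P) :
    a * b = b * a := by
  haveI : Fact (Nat.Prime 2) := ⟨Nat.prime_two⟩
  have h2 : (2 : F) = 0 := by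
    have : ((Fintype.card F : ℕ) : F) = 0 := Nat.cast_card_eq_zero F
    rw [hF] at this
    push_cast at this
    exact (pow_eq_zero_iff (by omega)).1 this
  haveI : CharP F 2 := by
    have h : ringChar F = 2 := CharP.ringChar_of_prime_eq_zero Nat.prime_two (by exact_mod_cast h2)
    rw [← h]
    exact ringChar.charP F
  exact sylow_abelian_p P a b

/-- The element of order three. -/
noncomputable def xS (h2 : (2 : F) = 0) : SL(2, F) :=
  ⟨!![0, 1; 1, 1], by
    rw [Matrix.det_fin_two_of]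
    linear_combination -h2⟩

/-- The involution. -/
noncomputable def tS (h2 : (2 : F) = 0) : SL(2, F) :=
  ⟨!![0, 1; 1, 0], by
    rw [Matrix.det_fin_two_of]
    linear_combination -h2⟩

lemma tS_sq (h2 : (2 : F) = 0) : tS h2 * tS h2 = 1 := by
  apply Subtype.ext
  change (!![0, 1; 1, 0] * !![0, 1; 1, 0] : Matrix (Fin 2) (Fin 2) F) = 1
  rw [Matrix.mul_fin_two, Matrix.one_fin_two]
  simp

lemma xS_cube (h2 : (2 : F) = 0) : xS h2 ^ 3 = 1 := by
  have e : xS h2 ^ 3 = xS h2 * xS h2 * xS h2 := by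
    simp only [pow_succ, pow_zero, one_mul]
  rw [e]
  apply Subtype.ext
  change (!![0, 1; 1, 1] * !![0, 1; 1, 1] * !![0, 1; 1, 1] : Matrix (Fin 2) (Fin 2) F) = 1
  rw [Matrix.mul_fin_two, Matrix.mul_fin_two, Matrix.one_fin_two]
  have h11 : (1 : F) + 1 = 0 := by linear_combination h2
  simp [h11]

lemma tx_sq (h2 : (2 : F) = 0) : tS h2 * xS h2 * (tS h2 * xS h2) = 1 := by
  apply Subtype.ext
  change (!![0, 1; 1, 0] * !![0, 1; 1, 1] * (!![0, 1; 1, 0] * !![0, 1; 1, 1]) : Matrix (Fin 2) (Fin 2) F) = 1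
  rw [Matrix.mul_fin_two, Matrix.mul_fin_two, Matrix.one_fin_two]
  have h11 : (1 : F) + 1 = 0 := by linear_combination h2
  simp [h11]

/-- `S₃` is involved in `PSL₂(F)`, `2 = 0` in `F`. -/
theorem involves_s3 (h2 : (2 : F) = 0) : Involves (Equiv.Perm (Fin 3)) (PSL(2, F)) := by
  have ht := tS_sq h2
  have hx := xS_cube h2
  have htx := tx_sq h2
  refine Cfsg.Agent.Lib.SThreeFree.Lift.involves_of_inverted (a := pr F (tS h2)) (x := pr F (xS h2)) ?_ ?_ ?_ ?_
  · rw [← map_mul, ht, map_one]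
  · have hti : (tS h2)⁻¹ = tS h2 := inv_eq_of_mul_eq_one_left ht
    have e : tS h2 * xS h2 * (tS h2)⁻¹ = (xS h2)⁻¹ := by
      rw [hti]
      apply eq_inv_of_mul_eq_one_left
      simpa [mul_assoc] using htx
    rw [← map_inv, ← map_inv, ← map_mul, ← map_mul, e]
  · rw [← map_pow, hx, map_one]
  · intro h
    have h1 : xS h2 ∈ Subgroup.center SL(2, F) := (QuotientGroup.eq_one_iff _).1 h
    have h3 := (mem_center_ent h1).1
    simp [xS] at h3

/-- `S₃` is involved in `PSL₂(F)`, `|F|` a power of two. -/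
theorem involves_s3_of_card {n : ℕ} (hn : 1 ≤ n) (hF : Fintype.card F = 2 ^ n) :
    Involves (Equiv.Perm (Fin 3)) (PSL(2, F)) := by
  have h2 : (2 : F) = 0 := by
    have : ((Fintype.card F : ℕ) : F) = 0 := Nat.cast_card_eq_zero F
    rw [hF] at this
    push_cast at this
    exact (pow_eq_zero_iff (by omega)).1 this
  exact involves_s3 h2

end Cfsg.Agent.Lib.Gold.L2Even
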