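import Mathlib
import Cfsg.Agent.S0276

/-!
# S2755, module [L2-odd]

For `F` of odd order `q` with `q % 8 ∈ {3, 5}`: the Sylow `2`-subgroups of `PSL₂(F)` are abelian (S0276).  If the
characteristic is not `3`, `PSL₂(F)` contains `x` of order `3` and `t` of order `2` with `t x t⁻¹ = x⁻¹`: the images of
`A = [[0,1],[-1,-1]]` and `B = [[a,a+c],[c,-a]]`, `a² + a c + c² = -1`.  If the characteristic is `3`, then `q = 3^(2n+1)`
since `3^even ≡ 1 mod 8`.
-/

set_option autoImplicit false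

namespace Cfsg.Agent.Lib.Gold.L2Odd

open Matrix

variable {F : Type*} [Field F] [Fintype F]

local notation "SL2" => Matrix.SpecialLinearGroup (Fin 2) F
local notation "PSL2" => Matrix.ProjectiveSpecialLinearGroup (Fin 2) F

/-- The Sylow `2`-subgroups of `PSL₂(F)` are abelian. -/
theorem sylow_comm {q : ℕ} (hF : Fintype.card F = q) (hq : q % 8 = 3 ∨ q % 8 = 5)
    (P : Sylow 2 PSL2) (a b : (P : Subgroup PSL2)) : a * b = b * a := by
  have h := Cfsg.Agent.S0276.result hF hq P
  exact mul_comm_of_exponent_two h.exponent_two a b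

/-- `q = 3^k`, `q ≡ 3, 5 mod 8` implies `k` odd. -/
theorem odd_exp {k : ℕ} (h : 3 ^ k % 8 = 3 ∨ 3 ^ k % 8 = 5) : ∃ n : ℕ, k = 2 * n + 1 := by
  rcases Nat.even_or_odd' k with ⟨n, rfl | rfl⟩
  · exfalso
    have : 3 ^ (2 * n) % 8 = 1 := by
      rw [pow_mul, Nat.pow_mod]
      norm_num
    omega
  · exact ⟨n, rfl⟩

/-- In characteristic `3`: `q = 3^(2n+1)`. -/
theorem card_of_char_three (h3 : (3 : F) = 0) (hq : Fintype.card F % 8 = 3 ∨ Fintype.card F % 8 = 5) :
    ∃ n : ℕ, Fintype.card F = 3 ^ (2 * n + 1) := by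
  have : CharP F 3 := by
    rw [CharP.charP_iff_prime_eq_zero Nat.prime_three]
    exact_mod_cast h3
  obtain ⟨k, -, hk⟩ := FiniteField.card F 3
  rw [hk] at hq
  obtain ⟨n, hn⟩ := odd_exp hq
  exact ⟨n, by rw [hk, hn]⟩

/-- `a² + a c + c² = -1` has a solution, `q` odd, `3 ≠ 0`. -/
theorem exists_ac (hodd : Fintype.card F % 2 = 1) (h3 : (3 : F) ≠ 0) :
    ∃ a c : F, a ^ 2 + a * c + c ^ 2 + 1 = 0 := by
  have h2 : (2 : F) ≠ 0 := by
    intro h2
    have hch : ringChar F = 2 := by
      have : CharP F 2 := by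
        rw [CharP.charP_iff_prime_eq_zero Nat.prime_two]
        exact_mod_cast h2
      exact ringChar.eq F 2
    have := FiniteField.even_card_iff_char_two.mp hch
    omega
  have hf : (Polynomial.X ^ 2 : Polynomial F).degree = 2 := Polynomial.degree_X_pow 2
  have hg : (Polynomial.C (3 : F) * Polynomial.X ^ 2 + Polynomial.C 4 : Polynomial F).degree = 2 := by
    compute_degree!
  obtain ⟨u, v, h⟩ := FiniteField.exists_root_sum_quadratic hf hg hodd
  simp only [Polynomial.eval_pow, Polynomial.eval_X, Polynomial.eval_add, Polynomial.eval_mul, Polynomial.eval_C] at h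
  refine ⟨(u - v) / 2, v, ?_⟩
  field_simp
  linear_combination h

/-- The elements of `PSL₂(F)`. -/
theorem exists_S3 (hodd : Fintype.card F % 2 = 1) (h3 : (3 : F) ≠ 0) :
    ∃ x t : PSL2, orderOf x = 3 ∧ orderOf t = 2 ∧ t * x * t⁻¹ = x⁻¹ := by
  obtain ⟨a, c, hac⟩ := exists_ac hodd h3
  let π : SL2 →* PSL2 := QuotientGroup.mk' _
  have hπ : ∀ g : SL2, π g = 1 → ∃ s : F, (g : Matrix (Fin 2) (Fin 2) F) = s • (1 : Matrix (Fin 2) (Fin 2) F) := by
    intro g hg
    have h1 : g ∈ Subgroup.center SL2 := by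
      have := (QuotientGroup.eq_one_iff g).mp hg
      exact this
    rw [Matrix.SpecialLinearGroup.mem_center_iff] at h1
    obtain ⟨r, -, hr⟩ := h1
    exact ⟨r, by rw [← hr]; ext i j; simp [Matrix.scalar_apply, Matrix.diagonal_apply, Matrix.one_apply]⟩
  let A : Matrix (Fin 2) (Fin 2) F := !![0, 1; -1, -1]
  let B : Matrix (Fin 2) (Fin 2) F := !![a, a + c; c, -a]
  have hdA : A.det = 1 := by
    simp [A, Matrix.det_fin_two_of]
  have hdB : B.det = 1 := by
    simp only [B, Matrix.det_fin_two_of]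
    linear_combination -hac
  let x0 : SL2 := ⟨A, hdA⟩
  let t0 : SL2 := ⟨B, hdB⟩
  have hA3 : x0 ^ 3 = 1 := by
    apply Subtype.ext
    change (x0 ^ 3 : SL2).1 = 1
    rw [pow_succ, pow_two]
    change A * A * A = 1
    simp only [A, Matrix.mul_fin_two]
    ext i j
    fin_cases i <;> fin_cases j <;> simp
  have hB2 : t0 * t0 = -1 := by
    apply Subtype.ext
    change B * B = -1
    simp only [B, Matrix.mul_fin_two]
    ext i j
    fin_cases i <;> fin_cases j <;> simp
    · linear_combination hac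
    · ring
    · ring
    · linear_combination hac
  have hrel : t0 * x0 = x0⁻¹ * t0 := by
    have hxinv : x0⁻¹ = x0 * x0 := by
      rw [eq_comm, eq_inv_iff_mul_eq_one, mul_assoc, ← pow_two, ← pow_succ', hA3]
    rw [hxinv]
    apply Subtype.ext
    change B * A = A * A * B
    simp only [A, B, Matrix.mul_fin_two]
    ext i j
    fin_cases i <;> fin_cases j <;> simp
    · ring
    · ring
  have hneg : π (-1) = 1 := by
    refine (QuotientGroup.eq_one_iff _).mpr ?_
    rw [Subgroup.mem_center_iff]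
    intro g
    ext i j
    simp
  have hx1 : π x0 ≠ 1 := by
    intro h
    obtain ⟨s, hs⟩ := hπ x0 h
    have := congrFun (congrFun hs 0) 1
    simp [x0, A] at this
  have ht1 : π t0 ≠ 1 := by
    intro h
    obtain ⟨s, hs⟩ := hπ t0 h
    have h01 := congrFun (congrFun hs 0) 1
    have h10 := congrFun (congrFun hs 1) 0
    have h00 := congrFun (congrFun hs 0) 0
    have h11 := congrFun (congrFun hs 1) 1
    simp [t0, B] at h01 h10 h00 h11
    have hc : c = 0 := h10
    have ha : a = 0 := by rw [hc, add_zero] at h01; exact h01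
    rw [hc, ha] at hac
    simp at hac
  have hx3 : π x0 ^ 3 = 1 := by rw [← map_pow, hA3, map_one]
  have ht2 : π t0 ^ 2 = 1 := by rw [pow_two, ← map_mul, hB2, hneg]
  refine ⟨π x0, π t0, orderOf_eq_prime hx3 hx1, orderOf_eq_prime ht2 ht1, ?_⟩
  have hc : t0 * x0 * t0⁻¹ = x0⁻¹ := by rw [hrel, mul_inv_cancel_right]
  rw [← map_mul, ← map_inv, ← map_mul, hc, map_inv]

/-- The dichotomy: `q = 3^(2n+1)`, or `PSL₂(F)` has `x, t` generating `S₃`. -/
theorem char_dichotomy (hq : Fintype.card F % 8 = 3 ∨ Fintype.card F % 8 = 5) :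
    (∃ n : ℕ, Fintype.card F = 3 ^ (2 * n + 1)) ∨
      ∃ x t : PSL2, orderOf x = 3 ∧ orderOf t = 2 ∧ t * x * t⁻¹ = x⁻¹ := by
  by_cases h3 : (3 : F) = 0
  · exact Or.inl (card_of_char_three h3 hq)
  · exact Or.inr (exists_S3 (by omega) h3)

end Cfsg.Agent.Lib.Gold.L2Odd
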