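/-
S2755 [U3]: `PSU₃(2ⁿ)`: sections. A nontrivial `2`-element of `SU₃(q)`, `q` even, fixes a unique isotropic line; the normalizer of a
nontrivial `2`-subgroup fixes that line; the stabilizer of an isotropic vector is a `2`-group (exponent dividing `4`).
-/
import Mathlib
import Cfsg.Prelude.Def_LocalEven
import Cfsg.Prelude.Def_Classical
import Cfsg.Agent.Lib.HermCount.Field
import Cfsg.Agent.Lib.PReduced.Sections
import Cfsg.Agent.Lib.Gold.Sec

set_option autoImplicit false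
set_option linter.unusedVariables false
set_option linter.unusedSectionVars false
set_option linter.style.haveILetI false

namespace Cfsg.Agent.Lib.Gold.U3

open Matrix Subgroup Cfsg Cfsg.Agent.Lib.HermCount.Field

section Pure

variable {F : Type*} [Field F]

lemma c2_zero (n00 n01 n02 n10 n11 n12 n20 n21 n22 x0 x1 x2 y0 y1 y2 : F)
    (h0 : n00*x0+n01*x1+n02*x2=0) (h1 : n10*x0+n11*x1+n12*x2=0) (h2 : n20*x0+n21*x1+n22*x2=0)
    (k0 : y0*n00+y1*n10+y2*n20=0) (k1 : y0*n01+y1*n11+y2*n21=0) (k2 : y0*n02+y1*n12+y2*n22=0)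
    (e : y0*x0+y1*x1+y2*x2=0) (hx : x0 ≠ 0 ∨ x1 ≠ 0 ∨ x2 ≠ 0) (hy : y0 ≠ 0 ∨ y1 ≠ 0 ∨ y2 ≠ 0) :
    n00*n11-n01*n10+n00*n22-n02*n20+n11*n22-n12*n21 = 0 := by
  rcases hx with hx | hx | hx <;> rcases hy with hy | hy | hy <;> grind

lemma cayley3 (N : Matrix (Fin 3) (Fin 3) F) :
    N ^ 3 = (N 0 0 + N 1 1 + N 2 2) • N ^ 2 -
      (N 0 0 * N 1 1 - N 0 1 * N 1 0 + N 0 0 * N 2 2 - N 0 2 * N 2 0 + N 1 1 * N 2 2 - N 1 2 * N 2 1) • N +
      N.det • (1 : Matrix (Fin 3) (Fin 3) F) := by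
  ext i j
  fin_cases i <;> fin_cases j <;>
    simp [pow_succ, Matrix.mul_apply, Fin.sum_univ_three, Matrix.det_fin_three] <;> ring

/-- Nilpotency of `N` from the flag. -/
lemma nil3 (N : Matrix (Fin 3) (Fin 3) F) (x y : Fin 3 → F) (hx : x ≠ 0) (hy : y ≠ 0)
    (hN : N *ᵥ x = 0) (hy' : ∀ v, y ⬝ᵥ (N *ᵥ v) = 0) (hxy : y ⬝ᵥ x = 0) (hdet : (1 + N).det = 1) :
    N ^ 3 = 0 := by
  have h0 := congrFun hN 0
  have h1 := congrFun hN 1
  have h2 := congrFun hN 2
  simp only [Matrix.mulVec, dotProduct, Fin.sum_univ_three, Pi.zero_apply] at h0 h1 h2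
  have k0 := hy' ![1, 0, 0]
  have k1 := hy' ![0, 1, 0]
  have k2 := hy' ![0, 0, 1]
  simp [Matrix.mulVec, dotProduct, Fin.sum_univ_three] at k0 k1 k2
  have e : y 0 * x 0 + y 1 * x 1 + y 2 * x 2 = 0 := by
    simpa [dotProduct, Fin.sum_univ_three] using hxy
  have hx' : x 0 ≠ 0 ∨ x 1 ≠ 0 ∨ x 2 ≠ 0 := by
    by_contra hc
    push Not at hc
    apply hx
    ext i
    fin_cases i
    · exact hc.1
    · exact hc.2.1
    · exact hc.2.2
  have hy2 : y 0 ≠ 0 ∨ y 1 ≠ 0 ∨ y 2 ≠ 0 := by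
    by_contra hc
    push Not at hc
    apply hy
    ext i
    fin_cases i
    · exact hc.1
    · exact hc.2.1
    · exact hc.2.2
  have hc2 := c2_zero (N 0 0) (N 0 1) (N 0 2) (N 1 0) (N 1 1) (N 1 2) (N 2 0) (N 2 1) (N 2 2)
    (x 0) (x 1) (x 2) (y 0) (y 1) (y 2) h0 h1 h2 k0 k1 k2 e hx' hy2
  have hd0 : N.det = 0 := by
    have : ∃ v : Fin 3 → F, v ≠ 0 ∧ N *ᵥ v = 0 := ⟨x, hx, hN⟩
    exact Matrix.exists_mulVec_eq_zero_iff.mp this
  have htr : N 0 0 + N 1 1 + N 2 2 = 0 := by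
    have e1 : (1 + N).det = 1 + (N 0 0 + N 1 1 + N 2 2) +
        (N 0 0 * N 1 1 - N 0 1 * N 1 0 + N 0 0 * N 2 2 - N 0 2 * N 2 0 + N 1 1 * N 2 2 - N 1 2 * N 2 1) + N.det := by
      simp [Matrix.det_fin_three]
      ring
    rw [hdet, hc2, hd0] at e1
    linear_combination -e1
  rw [cayley3, htr, hc2, hd0]
  simp

end Pure

variable {F : Type*} [Field F] [Fintype F] {q : ℕ}

/-- Two orthogonal isotropic vectors are proportional. -/
lemma prop_of_orth (hF : Fintype.card F = q ^ 2) {w y : Fin 3 → F} (hw : w ≠ 0)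
    (hww : hermForm 3 F q w w = 0) (hyy : hermForm 3 F q y y = 0) (hwy : hermForm 3 F q w y = 0) :
    ∃ c : F, y = c • w := by
  have hq := two_le hF
  have hq0 : q ≠ 0 := by omega
  simp only [hermForm, Fin.sum_univ_three] at hww hyy hwy
  have hyw : y 0 * w 0 ^ q + y 1 * w 1 ^ q + y 2 * w 2 ^ q = 0 := by
    have h := congrArg (fun t : F => t ^ q) hwy
    simp only [frob_add hF, mul_pow, frob_frob hF, zero_pow hq0] at h
    linear_combination h
  have hfrob : ∀ a b c d : F, (a * b - c * d) ^ q = a ^ q * b ^ q - c ^ q * d ^ q := by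
    intro a b c d
    have := map_sub (frobHom hF) (a * b) (c * d)
    simpa [frobHom_apply, mul_pow] using this
  have inj : ∀ a : F, a ^ q = 0 → a = 0 := fun a ha => pow_eq_zero_iff hq0 |>.1 ha
  generalize ha0 : w 0 ^ q = a0 at *
  generalize ha1 : w 1 ^ q = a1 at *
  generalize ha2 : w 2 ^ q = a2 at *
  generalize hb0 : y 0 ^ q = b0 at *
  generalize hb1 : y 1 ^ q = b1 at *
  generalize hb2 : y 2 ^ q = b2 at *
  have c0 : w 1 * y 2 - w 2 * y 1 = 0 := by
    by_contra hc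
    have hk : (w 1 * y 2 - w 2 * y 1) * (w 1 * y 2 - w 2 * y 1) * (a1 * b2 - a2 * b1) = 0 := by grind
    have h3 : a1 * b2 - a2 * b1 = 0 := by
      rcases mul_eq_zero.1 hk with h | h
      · exact absurd (mul_self_eq_zero.1 h) hc
      · exact h
    apply hc
    apply inj
    rw [hfrob, ha1, hb2, ha2, hb1, h3]
  have c1 : w 2 * y 0 - w 0 * y 2 = 0 := by
    by_contra hc
    have hk : (w 2 * y 0 - w 0 * y 2) * (w 2 * y 0 - w 0 * y 2) * (a2 * b0 - a0 * b2) = 0 := by grind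
    have h3 : a2 * b0 - a0 * b2 = 0 := by
      rcases mul_eq_zero.1 hk with h | h
      · exact absurd (mul_self_eq_zero.1 h) hc
      · exact h
    apply hc
    apply inj
    rw [hfrob, ha2, hb0, ha0, hb2, h3]
  have c2 : w 0 * y 1 - w 1 * y 0 = 0 := by
    by_contra hc
    have hk : (w 0 * y 1 - w 1 * y 0) * (w 0 * y 1 - w 1 * y 0) * (a0 * b1 - a1 * b0) = 0 := by grind
    have h3 : a0 * b1 - a1 * b0 = 0 := by
      rcases mul_eq_zero.1 hk with h | h
      · exact absurd (mul_self_eq_zero.1 h) hc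
      · exact h
    apply hc
    apply inj
    rw [hfrob, ha0, hb1, ha1, hb0, h3]
  have hw' : w 0 ≠ 0 ∨ w 1 ≠ 0 ∨ w 2 ≠ 0 := by
    by_contra hc
    push Not at hc
    apply hw
    ext i
    fin_cases i
    · exact hc.1
    · exact hc.2.1
    · exact hc.2.2
  rcases hw' with h | h | h
  · refine ⟨y 0 / w 0, ?_⟩
    ext i
    fin_cases i <;> simp <;> field_simp <;> grind
  · refine ⟨y 1 / w 1, ?_⟩
    ext i
    fin_cases i <;> simp <;> field_simp <;> grind
  · refine ⟨y 2 / w 2, ?_⟩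
    ext i
    fin_cases i <;> simp <;> field_simp <;> grind

/-- The matrix of an element of `SU`. -/
abbrev mat (g : ↥(SU 3 F q)) : Matrix (Fin 3) (Fin 3) F := (g.1.1 : Matrix (Fin 3) (Fin 3) F)

lemma su_isom (g : ↥(SU 3 F q)) (v w : Fin 3 → F) :
    hermForm 3 F q (mat g *ᵥ v) (mat g *ᵥ w) = hermForm 3 F q v w := g.2 v w

lemma mat_mul (g h : ↥(SU 3 F q)) : mat (g * h) = mat g * mat h := rfl

lemma mat_one : mat (1 : ↥(SU 3 F q)) = 1 := rfl

lemma mat_pow (g : ↥(SU 3 F q)) (n : ℕ) : mat (g ^ n) = mat g ^ n := by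
  induction n with
  | zero => rfl
  | succ n ih => rw [pow_succ, mat_mul, ih, pow_succ]

lemma mat_inj {g h : ↥(SU 3 F q)} (e : mat g = mat h) : g = h :=
  Subtype.ext (Subtype.ext e)

lemma mul_apply' (g h : ↥(SU 3 F q)) (v : Fin 3 → F) :
    mat (g * h) *ᵥ v = mat g *ᵥ (mat h *ᵥ v) := by
  rw [mat_mul, Matrix.mulVec_mulVec]

lemma inv_apply' (g : ↥(SU 3 F q)) (v : Fin 3 → F) : mat g⁻¹ *ᵥ (mat g *ᵥ v) = v := by
  rw [← mul_apply', inv_mul_cancel, mat_one, Matrix.one_mulVec]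

lemma apply_inv' (g : ↥(SU 3 F q)) (v : Fin 3 → F) : mat g *ᵥ (mat g⁻¹ *ᵥ v) = v := by
  rw [← mul_apply', mul_inv_cancel, mat_one, Matrix.one_mulVec]

lemma apply_ne_zero (g : ↥(SU 3 F q)) {v : Fin 3 → F} (hv : v ≠ 0) : mat g *ᵥ v ≠ 0 := by
  intro h
  apply hv
  rw [← inv_apply' g v, h, Matrix.mulVec_zero]

lemma herm_sub (a b y : Fin 3 → F) :
    hermForm 3 F q (a - b) y = hermForm 3 F q a y - hermForm 3 F q b y := by
  simp only [hermForm, Pi.sub_apply, sub_mul, Finset.sum_sub_distrib]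

/-- The special vector of a nontrivial `2`-element. -/
lemma exists_special [CharP F 2] (u : ↥(SU 3 F q)) (hu1 : u ≠ 1) (k : ℕ) (hk : u ^ (2 ^ k) = 1) :
    ∃ w : Fin 3 → F, w ≠ 0 ∧ mat u *ᵥ w = w ∧ hermForm 3 F q w w = 0 ∧
      ∀ y, mat u *ᵥ y = y → hermForm 3 F q w y = 0 := by
  classical
  haveI : Fact (Nat.Prime 2) := ⟨Nat.prime_two⟩
  set N : Matrix (Fin 3) (Fin 3) F := mat u - 1 with hNdef
  have hNk : N ^ (2 ^ k) = 0 := by
    rw [hNdef, sub_pow_char_pow_of_commute 2 k (Commute.one_right _), ← mat_pow, hk, mat_one, one_pow, sub_self]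
  have hex : ∃ m, N ^ m = 0 := ⟨_, hNk⟩
  have hN0 : N ≠ 0 := by
    intro h
    apply hu1
    apply mat_inj
    rw [mat_one]
    exact sub_eq_zero.1 h
  let m := Nat.find hex
  have hm : N ^ m = 0 := Nat.find_spec hex
  have hm0 : m ≠ 0 := by
    intro h
    rw [h, pow_zero] at hm
    exact one_ne_zero hm
  have hm1 : m ≠ 1 := by
    intro h
    rw [h, pow_one] at hm
    exact hN0 hm
  obtain ⟨j, hj⟩ : ∃ j, m = j + 2 := ⟨m - 2, by omega⟩
  have hne : N ^ (j + 1) ≠ 0 := by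
    have := Nat.find_min hex (m := j + 1) (by show j + 1 < m; omega)
    exact this
  obtain ⟨v, hv⟩ : ∃ v, N ^ (j + 1) *ᵥ v ≠ 0 := by
    by_contra hc
    push Not at hc
    apply hne
    exact Matrix.mulVec_injective (by funext v; rw [hc v, Matrix.zero_mulVec])
  have hNw : N *ᵥ (N ^ (j + 1) *ᵥ v) = 0 := by
    rw [Matrix.mulVec_mulVec, ← pow_succ', ← hj, hm, Matrix.zero_mulVec]
  have hfix : mat u *ᵥ (N ^ (j + 1) *ᵥ v) = N ^ (j + 1) *ᵥ v := by
    have : mat u = N + 1 := by rw [hNdef]; abel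
    rw [this, Matrix.add_mulVec, hNw, zero_add, Matrix.one_mulVec]
  have horth : ∀ y, mat u *ᵥ y = y → hermForm 3 F q (N ^ (j + 1) *ᵥ v) y = 0 := by
    intro y hy
    have e1 : N ^ (j + 1) *ᵥ v = mat u *ᵥ (N ^ j *ᵥ v) - N ^ j *ᵥ v := by
      rw [pow_succ', ← Matrix.mulVec_mulVec, hNdef, Matrix.sub_mulVec, Matrix.one_mulVec]
    rw [e1, herm_sub]
    conv_lhs => rw [← hy]
    rw [su_isom, hy, sub_self]
  exact ⟨_, hv, hfix, horth _ hfix, horth⟩

/-- A `2`-element has only the eigenvalue `1`. -/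
lemma eigen_one [CharP F 2] (t : ↥(SU 3 F q)) (k : ℕ) (hk : t ^ (2 ^ k) = 1) {x : Fin 3 → F} (hx : x ≠ 0) {c : F}
    (h : mat t *ᵥ x = c • x) : c = 1 := by
  haveI : Fact (Nat.Prime 2) := ⟨Nat.prime_two⟩
  have hpow : ∀ n : ℕ, mat (t ^ n) *ᵥ x = c ^ n • x := by
    intro n
    induction n with
    | zero => simp [mat_one]
    | succ n ih =>
      rw [pow_succ, mul_apply', h, Matrix.mulVec_smul, ih, smul_smul, pow_succ']
  have h1 := hpow (2 ^ k)
  rw [hk, mat_one, Matrix.one_mulVec] at h1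
  have h2 : (c ^ (2 ^ k) - 1) • x = 0 := by
    rw [sub_smul, one_smul, ← h1, sub_self]
  have h3 : c ^ (2 ^ k) = 1 := by
    rcases smul_eq_zero.1 h2 with h | h
    · exact sub_eq_zero.1 h
    · exact absurd h hx
  have h4 : (c - 1) ^ (2 ^ k) = 0 := by
    rw [sub_pow_char_pow, h3, one_pow, sub_self]
  exact sub_eq_zero.1 (pow_eq_zero_iff (by positivity) |>.1 h4)

/-- The normalizer of a nontrivial `2`-subgroup fixes an isotropic line. -/
theorem exists_fixed [CharP F 2] (hF : Fintype.card F = q ^ 2) (T : Subgroup ↥(SU 3 F q)) (hT : IsPGroup 2 T) (hT1 : T ≠ ⊥) :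
    ∃ x : Fin 3 → F, x ≠ 0 ∧ hermForm 3 F q x x = 0 ∧
      ∀ g ∈ normalizer (T : Set ↥(SU 3 F q)), ∃ c : F, mat g *ᵥ x = c • x := by
  classical
  haveI : Fact (Nat.Prime 2) := ⟨Nat.prime_two⟩
  haveI : Nontrivial T := by
    rw [Subgroup.nontrivial_iff_ne_bot]
    exact hT1
  haveI : Finite T := inferInstance
  have hcen := hT.center_nontrivial
  obtain ⟨z, hz1⟩ := exists_ne (1 : center T)
  have hz1' : ((z : T) : ↥(SU 3 F q)) ≠ 1 := by
    intro h
    apply hz1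
    exact Subtype.ext (Subtype.ext h)
  obtain ⟨k, hk⟩ := hT (z : T)
  have hk' : ((z : T) : ↥(SU 3 F q)) ^ (2 ^ k) = 1 := by
    have := congrArg (Subtype.val) hk
    simpa using this
  obtain ⟨w, hw0, hwz, hww, hwo⟩ := exists_special _ hz1' k hk'
  have hfixT : ∀ t ∈ T, mat t *ᵥ w = w := by
    intro t ht
    have hc : (z : T) * (⟨t, ht⟩ : T) = ⟨t, ht⟩ * (z : T) :=
      ((Subgroup.mem_center_iff.1 z.2) ⟨t, ht⟩).symm
    have hc' : ((z : T) : ↥(SU 3 F q)) * t = t * ((z : T) : ↥(SU 3 F q)) := congrArg Subtype.val hc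
    have hfix : mat ((z : T) : ↥(SU 3 F q)) *ᵥ (mat t *ᵥ w) = mat t *ᵥ w := by
      rw [← mul_apply', hc', mul_apply', hwz]
    have h0 := hwo _ hfix
    have hiso : hermForm 3 F q (mat t *ᵥ w) (mat t *ᵥ w) = 0 := by rw [su_isom, hww]
    obtain ⟨c, hc⟩ := prop_of_orth hF hw0 hww hiso h0
    obtain ⟨k', hk'⟩ := hT (⟨t, ht⟩ : T)
    have hk2 : t ^ (2 ^ k') = 1 := by
      have := congrArg (Subtype.val) hk'
      simpa using this
    have := eigen_one t k' hk2 hw0 hc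
    rw [hc, this, one_smul]
  refine ⟨w, hw0, hww, ?_⟩
  intro g hg
  have hz' : g⁻¹ * ((z : T) : ↥(SU 3 F q)) * g ∈ T := by
    have h1 := (mem_normalizer_iff.1 (inv_mem hg) ((z : T) : ↥(SU 3 F q))).1 (z : T).2
    simpa using h1
  have hfix : mat ((z : T) : ↥(SU 3 F q)) *ᵥ (mat g *ᵥ w) = mat g *ᵥ w := by
    have h1 := hfixT _ hz'
    have e : ((z : T) : ↥(SU 3 F q)) * g = g * (g⁻¹ * ((z : T) : ↥(SU 3 F q)) * g) := by group
    rw [← mul_apply', e, mul_apply', h1]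
  have h0 := hwo _ hfix
  have hiso : hermForm 3 F q (mat g *ᵥ w) (mat g *ᵥ w) = 0 := by rw [su_isom, hww]
  obtain ⟨c, hc⟩ := prop_of_orth hF hw0 hww hiso h0
  exact ⟨c, hc⟩

/-- The stabilizer of an isotropic vector has exponent dividing `4`. -/
theorem stab_pow_four [CharP F 2] (hF : Fintype.card F = q ^ 2) (g : ↥(SU 3 F q)) {x : Fin 3 → F} (hx : x ≠ 0)
    (hxx : hermForm 3 F q x x = 0) (hg : mat g *ᵥ x = x) : g ^ 4 = 1 := by
  classical
  haveI : Fact (Nat.Prime 2) := ⟨Nat.prime_two⟩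
  have hq := two_le hF
  have hq0 : q ≠ 0 := by omega
  set N : Matrix (Fin 3) (Fin 3) F := mat g - 1 with hNdef
  let y : Fin 3 → F := fun i => x i ^ q
  have hy : y ≠ 0 := by
    intro h
    apply hx
    funext i
    have := congrFun h i
    exact pow_eq_zero_iff hq0 |>.1 this
  have hN : N *ᵥ x = 0 := by
    rw [hNdef, Matrix.sub_mulVec, Matrix.one_mulVec, hg, sub_self]
  have hdot : ∀ a : Fin 3 → F, y ⬝ᵥ a = hermForm 3 F q a x := by
    intro a
    simp only [hermForm, dotProduct, y]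
    exact Finset.sum_congr rfl fun i _ => mul_comm _ _
  have hy' : ∀ v, y ⬝ᵥ (N *ᵥ v) = 0 := by
    intro v
    rw [hdot, hNdef, Matrix.sub_mulVec, Matrix.one_mulVec, herm_sub]
    conv_lhs => rw [← hg]
    rw [su_isom, hg, sub_self]
  have hxy : y ⬝ᵥ x = 0 := by rw [hdot, hxx]
  have hdet : (1 + N).det = 1 := by
    have : (1 : Matrix (Fin 3) (Fin 3) F) + N = mat g := by rw [hNdef]; abel
    rw [this]
    exact g.1.2
  have h3 := nil3 N x y hx hy hN hy' hxy hdet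
  have h4 : N ^ (2 ^ 2) = 0 := by
    have : (2 : ℕ) ^ 2 = 3 + 1 := rfl
    rw [this, pow_succ, h3, zero_mul]
  rw [hNdef, sub_pow_char_pow_of_commute 2 2 (Commute.one_right _), one_pow] at h4
  apply mat_inj
  rw [mat_pow, mat_one]
  exact sub_eq_zero.1 h4

/-- (b) for `SU₃(q)`, `q` even. -/
theorem norm_hyp [CharP F 2] (hF : Fintype.card F = q ^ 2) (T : Subgroup ↥(SU 3 F q))
    (hT : IsPGroup 2 T) (hT1 : T ≠ ⊥) :
    ∃ W : Subgroup ↥(SU 3 F q), IsPGroup 2 W ∧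
      ∀ x ∈ normalizer (T : Set ↥(SU 3 F q)), (∃ k : ℕ, x ^ 2 ^ k = 1) → x ∈ W := by
  classical
  obtain ⟨x, hx0, hxx, hfix⟩ := exists_fixed hF T hT hT1
  let W : Subgroup ↥(SU 3 F q) :=
    { carrier := {g | mat g *ᵥ x = x}
      mul_mem' := by
        intro a b ha hb
        show mat (a * b) *ᵥ x = x
        rw [mul_apply', hb, ha]
      one_mem' := by
        show mat (1 : ↥(SU 3 F q)) *ᵥ x = x
        rw [mat_one, Matrix.one_mulVec]
      inv_mem' := by
        intro a ha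
        show mat a⁻¹ *ᵥ x = x
        conv_lhs => rw [← ha]
        exact inv_apply' a x }
  refine ⟨W, ?_, ?_⟩
  · intro g
    refine ⟨2, ?_⟩
    have h1 := stab_pow_four hF (g : ↥(SU 3 F q)) hx0 hxx g.2
    apply Subtype.ext
    exact h1
  · rintro g hg ⟨k, hk⟩
    obtain ⟨c, hc⟩ := hfix g hg
    have := eigen_one g k hk hx0 hc
    show mat g *ᵥ x = x
    rw [hc, this, one_smul]

/-- Permutation matrices, `q` even. -/
noncomputable def permSU [CharP F 2] (σ : Equiv.Perm (Fin 3)) : ↥(SU 3 F q) :=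
  ⟨⟨(σ⁻¹).permMatrix F, by
    rw [Matrix.det_permutation]
    rcases Int.units_eq_one_or (Equiv.Perm.sign σ⁻¹) with h | h <;> rw [h] <;> simp [CharTwo.neg_eq]⟩, by
    intro u v
    show hermForm 3 F q ((σ⁻¹).permMatrix F *ᵥ u) ((σ⁻¹).permMatrix F *ᵥ v) = hermForm 3 F q u v
    rw [Matrix.permMatrix_mulVec, Matrix.permMatrix_mulVec]
    simp only [hermForm]
    exact Equiv.sum_comp (σ⁻¹) (fun i => u i * v i ^ q)⟩

lemma permSU_apply [CharP F 2] (σ : Equiv.Perm (Fin 3)) (v : Fin 3 → F) :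
    mat (permSU (q := q) σ) *ᵥ v = v ∘ (σ⁻¹ : Equiv.Perm (Fin 3)) := by
  show (σ⁻¹).permMatrix F *ᵥ v = _
  rw [Matrix.permMatrix_mulVec]

lemma permSU_mul [CharP F 2] (σ τ : Equiv.Perm (Fin 3)) :
    permSU (F := F) (q := q) (σ * τ) = permSU σ * permSU τ := by
  apply mat_inj
  apply Matrix.mulVec_injective
  funext v
  rw [mat_mul, ← Matrix.mulVec_mulVec, permSU_apply, permSU_apply, permSU_apply]
  funext i
  simp [_root_.mul_inv_rev]

lemma permSU_one [CharP F 2] : permSU (F := F) (q := q) 1 = 1 := by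
  apply mat_inj
  apply Matrix.mulVec_injective
  funext v
  rw [permSU_apply, mat_one, Matrix.one_mulVec]
  funext i
  simp

lemma permSU_inj [CharP F 2] {σ : Equiv.Perm (Fin 3)} (h : permSU (F := F) (q := q) σ = 1) : σ = 1 := by
  classical
  by_contra hσ
  obtain ⟨i, hi⟩ : ∃ i, (σ⁻¹ : Equiv.Perm (Fin 3)) i ≠ i := by
    by_contra hc
    push Not at hc
    apply hσ
    have : (σ⁻¹ : Equiv.Perm (Fin 3)) = 1 := Equiv.ext hc
    simpa using this
  have h1 := permSU_apply (F := F) (q := q) σ (Pi.single i 1)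
  rw [h, mat_one, Matrix.one_mulVec] at h1
  have h2 := congrFun h1 i
  simp [Pi.single_apply] at h2
  exact hi h2

/-- `PSU₃(2ⁿ)`. -/
theorem main {F : Type*} [Field F] [Fintype F] {n : ℕ} (hF : Fintype.card F = 4 ^ n) (hn : 2 ≤ n) :
    ¬ Involves (Equiv.Perm (Fin 4)) (PSU 3 F (2 ^ n)) ∧ Involves (Equiv.Perm (Fin 3)) (PSU 3 F (2 ^ n)) := by
  classical
  have hF' : Fintype.card F = (2 ^ n) ^ 2 := by
    rw [hF, ← pow_mul, mul_comm, pow_mul]
    norm_num
  haveI hch : CharP F 2 := by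
    apply CharTwo.of_one_ne_zero_of_two_eq_zero one_ne_zero
    have h0 : ((4 ^ n : ℕ) : F) = 0 := by
      rw [← hF]
      exact Nat.cast_card_eq_zero F
    have h1 : ((2 : F) ^ (2 * n)) = 0 := by
      rw [pow_mul]
      push_cast at h0
      have : (2 : F) ^ 2 = 4 := by norm_num
      rw [this]
      exact h0
    exact pow_eq_zero_iff (by omega) |>.1 h1
  haveI : Finite ↥(SU 3 F (2 ^ n)) := inferInstance
  constructor
  · intro h
    have h1 : Involves (Equiv.Perm (Fin 4)) ↥(SU 3 F (2 ^ n)) :=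
      Cfsg.Agent.Lib.PReduced.Sections.involves_comap (QuotientGroup.mk' (center ↥(SU 3 F (2 ^ n))))
        (QuotientGroup.mk'_surjective _) h
    exact Cfsg.Agent.Lib.Gold.Sec.not_involves_s4_of_norm (fun T hT hT1 => norm_hyp hF' T hT hT1) h1
  · let c : Equiv.Perm (Fin 3) := Equiv.swap 0 1 * Equiv.swap 1 2
    let s : Equiv.Perm (Fin 3) := Equiv.swap 0 1
    have hc3 : c * c * c = 1 := by decide +kernel
    have hss : s * s = 1 := by decide +kernel
    have hinv : s * c * s⁻¹ = c⁻¹ := by decide +kernel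
    have hc1 : c ≠ 1 := by decide +kernel
    have hcc : c * c ≠ 1 := by decide +kernel
    let π := QuotientGroup.mk' (center ↥(SU 3 F (2 ^ n)))
    let φ : Equiv.Perm (Fin 3) →* ↥(SU 3 F (2 ^ n)) :=
      { toFun := permSU
        map_one' := permSU_one
        map_mul' := permSU_mul }
    let ψ := π.comp φ
    refine Cfsg.Agent.Lib.Gold.Sec.involves_s3_of_inverted (x := ψ c) (t := ψ s) ?_ ?_ ?_ ?_
    · rw [← map_pow, pow_three', hc3, map_one]
    · intro h
      have hmem : φ c ∈ center ↥(SU 3 F (2 ^ n)) := by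
        have : π (φ c) = 1 := h
        exact (QuotientGroup.eq_one_iff _).1 this
      have hcomm : φ s * φ c = φ c * φ s := (Subgroup.mem_center_iff.1 hmem (φ s))
      have hconj : φ c = φ c⁻¹ := by
        have h1 : φ s * φ c * (φ s)⁻¹ = φ c⁻¹ := by
          rw [← map_inv, ← map_mul, ← map_mul, hinv]
        rw [← h1, hcomm]
        group
      have h2 : φ (c * c) = 1 := by
        calc φ (c * c) = φ c * φ c := map_mul _ _ _
          _ = φ c⁻¹ * φ c := by rw [← hconj]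
          _ = 1 := by rw [← map_mul, inv_mul_cancel, map_one]
      exact hcc (permSU_inj h2)
    · rw [← map_mul, hss, map_one]
    · rw [← map_inv, ← map_mul, ← map_mul, hinv, map_inv]

end Cfsg.Agent.Lib.Gold.U3
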