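import Cfsg.Agent.Lib.Gold.Wrap
import Cfsg.Agent.Lib.Gold.Sec
import Cfsg.Agent.Lib.Gold.L23
import Cfsg.Agent.Lib.Gold.L2Odd
import Cfsg.Agent.Lib.Gold.L2Even
import Cfsg.Agent.Lib.Gold.U3

/-!
# S2755, the explicit families
-/

set_option autoImplicit false

namespace Cfsg.Agent.Lib.Gold.Cases

open Cfsg

local notation "S3" => Equiv.Perm (Fin 3)
local notation "S4" => Equiv.Perm (Fin 4)

theorem hL3 (F : Type) [Field F] [Fintype F] (n : ℕ) (hF : Fintype.card F = 3 ^ (2 * n + 1)) :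
    ¬ Involves S3 (Matrix.ProjectiveSpecialLinearGroup (Fin 2) F) :=
  L23.not_involves_s3 hF

theorem hLodd (F : Type) [Field F] [Fintype F] (q : ℕ) (hF : Fintype.card F = q) (_hq : 5 ≤ q)
    (hq8 : q % 8 = 3 ∨ q % 8 = 5) :
    ¬ Involves S4 (Matrix.ProjectiveSpecialLinearGroup (Fin 2) F) ∧
      (Involves S3 (Matrix.ProjectiveSpecialLinearGroup (Fin 2) F) ∨ ∃ n : ℕ, Fintype.card F = 3 ^ (2 * n + 1)) := by
  refine ⟨Sec.not_involves_s4_of_abelian (fun P x hx y hy =>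
    congrArg Subtype.val (L2Odd.sylow_comm hF hq8 P ⟨x, hx⟩ ⟨y, hy⟩)), ?_⟩
  have hc : Fintype.card F % 8 = 3 ∨ Fintype.card F % 8 = 5 := by rw [hF]; exact hq8
  rcases L2Odd.char_dichotomy hc with h | ⟨x, t, hx, ht, hinv⟩
  · exact Or.inr h
  · left
    refine Sec.involves_s3_of_inverted ?_ ?_ ?_ hinv
    · rw [← hx]; exact pow_orderOf_eq_one x
    · intro h1
      rw [h1, orderOf_one] at hx
      omega
    · have := pow_orderOf_eq_one t
      rw [ht, pow_two] at this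
      exact this

theorem hLeven (F : Type) [Field F] [Fintype F] (n : ℕ) (hn : 3 ≤ n) (hF : Fintype.card F = 2 ^ n) :
    ¬ Involves S4 (Matrix.ProjectiveSpecialLinearGroup (Fin 2) F) ∧
      Involves S3 (Matrix.ProjectiveSpecialLinearGroup (Fin 2) F) := by
  have hn1 : 1 ≤ n := by omega
  refine ⟨Sec.not_involves_s4_of_abelian (fun P x hx y hy =>
    congrArg Subtype.val (L2Even.sylow_abelian hn1 hF P ⟨x, hx⟩ ⟨y, hy⟩)), L2Even.involves_s3_of_card hn1 hF⟩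

theorem hU3 (F : Type) [Field F] [Fintype F] (n : ℕ) (hn : 2 ≤ n) (hF : Fintype.card F = 4 ^ n) :
    ¬ Involves S4 (PSU 3 F (2 ^ n)) ∧ Involves S3 (PSU 3 F (2 ^ n)) :=
  U3.main hF hn

end Cfsg.Agent.Lib.Gold.Cases
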