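import Mathlib

/-!
# S2755, the local argument for groups of Ree type (abstract part)

`t` an involution, `U` an abelian `3`-group commuting with `t`, with `C(t) ∩ C(U) ⊆ ⟨t⟩U`, every
`c ∈ C(t) ∩ N(U)` having a power `c ^ m`, `3 ∤ m`, in `C(U)`, and a `3`-element `y ∈ N(U) \ U`.
Then `t` inverts an element of order `3`.

The proof uses no quotient: for `y ∈ N(U)` the involution `i = y t y⁻¹` lies in `C(U)`, the
dihedral group `⟨t, i⟩` has `t i` of odd order, so `i = z t z⁻¹` with `z ∈ C(U)` inverted by `t`.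
Then `c = z⁻¹ y ∈ C(t) ∩ N(U)`.
-/

set_option autoImplicit false

namespace Cfsg.Agent.Lib.Gold.ReeCore

open Subgroup

variable {G : Type*} [Group G]

lemma eq_one_of_sq_of_three {u : G} {r : ℕ} (h3 : u ^ 3 ^ r = 1) (h2 : u * u = 1) : u = 1 := by
  have h1 : orderOf u ∣ 3 ^ r := orderOf_dvd_of_pow_eq_one h3
  have h4 : orderOf u ∣ 2 := orderOf_dvd_of_pow_eq_one (by rw [pow_two, h2])
  have h5 : orderOf u ∣ Nat.gcd (3 ^ r) 2 := Nat.dvd_gcd h1 h4
  have h6 : Nat.gcd (3 ^ r) 2 = 1 := Nat.Coprime.pow_left r (by norm_num)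
  rw [h6, Nat.dvd_one, orderOf_eq_one_iff] at h5
  exact h5

/-- The hypotheses. -/
structure Data (t : G) (U : Subgroup G) : Prop where
  ht : t * t = 1
  hU3 : ∀ u ∈ U, ∃ r : ℕ, u ^ 3 ^ r = 1
  hUc : ∀ u ∈ U, ∀ v ∈ U, u * v = v * u
  htU : t ∈ centralizer (U : Set G)
  hCC : ∀ x, x * t = t * x → x ∈ centralizer (U : Set G) → ∃ u ∈ U, x = u ∨ x = t * u

variable {t : G} {U : Subgroup G}

lemma Data.invol (D : Data t U) {r : G} (hr : r * t = t * r) (hrC : r ∈ centralizer (U : Set G))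
    (h2 : r * r = 1) : r = 1 ∨ r = t := by
  obtain ⟨u, hu, h | h⟩ := D.hCC r hr hrC
  · left
    obtain ⟨k, hk⟩ := D.hU3 u hu
    subst h
    exact eq_one_of_sq_of_three hk h2
  · right
    obtain ⟨k, hk⟩ := D.hU3 u hu
    have htu : u * t = t * u := (mem_centralizer_iff.mp D.htU u hu)
    have : u * u = 1 := by
      subst h
      have : t * u * (t * u) = (t * t) * (u * u) := by
        calc t * u * (t * u) = t * (u * t) * u := by group
          _ = t * (t * u) * u := by rw [htu]
          _ = _ := by group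
      rw [this, D.ht, one_mul] at h2
      exact h2
    have hu1 := eq_one_of_sq_of_three hk this
    subst hu1
    simpa using h

/-- `t` inverts `t * i`. -/
lemma conj_g (ht : t * t = 1) {i : G} (hi : i * i = 1) : t * (t * i) * t⁻¹ = (t * i)⁻¹ := by
  have ht' : t⁻¹ = t := inv_eq_of_mul_eq_one_left ht
  have hi' : i⁻¹ = i := inv_eq_of_mul_eq_one_left hi
  rw [mul_inv_rev, ht', hi', ← mul_assoc, ht, one_mul]

lemma conj_g_pow (ht : t * t = 1) {i : G} (hi : i * i = 1) (k : ℕ) :
    t * (t * i) ^ k * t⁻¹ = ((t * i) ^ k)⁻¹ := by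
  rw [← conj_pow, conj_g ht hi, inv_pow]

lemma Data.odd_order [Finite G] (D : Data t U) {i : G} (hi : i * i = 1) (hi1 : i ≠ 1)
    (hiC : i ∈ centralizer (U : Set G)) : Odd (orderOf (t * i)) := by
  by_contra hodd
  rw [Nat.not_odd_iff_even] at hodd
  obtain ⟨k, hk⟩ := hodd
  have hpos : 0 < orderOf (t * i) := orderOf_pos _
  have hk0 : 0 < k := by omega
  set g := t * i with hg
  have hgC : g ∈ centralizer (U : Set G) := mul_mem D.htU hiC
  set r := g ^ k with hr
  have hr2 : r * r = 1 := by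
    rw [hr, ← pow_add, ← hk, pow_orderOf_eq_one]
  have hr1 : r ≠ 1 := pow_ne_one_of_lt_orderOf (by omega) (by omega)
  have hrt : t * r * t⁻¹ = r⁻¹ := conj_g_pow D.ht hi k
  have hrinv : r⁻¹ = r := inv_eq_of_mul_eq_one_left hr2
  have hcomm : r * t = t * r := by
    rw [hrinv] at hrt
    exact (mul_inv_eq_iff_eq_mul.mp hrt).symm
  have hrC : r ∈ centralizer (U : Set G) := pow_mem hgC k
  have hrt' : r = t := (D.invol hcomm hrC hr2).resolve_left hr1
  -- so `t` commutes with `g`
  have hgt : t * g * t⁻¹ = g := by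
    have h1 : g * t = t * g := by
      rw [← hrt', hr]
      exact (Commute.pow_left (Commute.refl g) k).eq.symm
    rw [← h1, mul_inv_cancel_right]
  have hgg : g * g = 1 := by
    have := conj_g D.ht hi
    rw [← hg, hgt] at this
    nth_rewrite 1 [this]
    exact inv_mul_cancel g
  have hd : orderOf g ∣ 2 := orderOf_dvd_of_pow_eq_one (by rw [pow_two, hgg])
  have hle := Nat.le_of_dvd (by norm_num) hd
  have hk1 : k = 1 := by omega
  rw [hk1, pow_one] at hr
  have : t * i = t := by rw [← hg, ← hr, hrt']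
  exact hi1 (by simpa using this)

/-- The dihedral trick. -/
lemma Data.exists_z [Finite G] (D : Data t U) {i : G} (hi : i * i = 1) (hi1 : i ≠ 1)
    (hiC : i ∈ centralizer (U : Set G)) :
    ∃ z ∈ centralizer (U : Set G), t * z * t⁻¹ = z⁻¹ ∧ z * t * z⁻¹ = i := by
  obtain ⟨m, hm⟩ := D.odd_order hi hi1 hiC
  set g := t * i with hg
  have hgC : g ∈ centralizer (U : Set G) := mul_mem D.htU hiC
  refine ⟨g ^ m, pow_mem hgC m, conj_g_pow D.ht hi m, ?_⟩
  have h1 : t * (g ^ m)⁻¹ = g ^ m * t := by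
    have := conj_g_pow D.ht hi m
    rw [← hg] at this
    have h2 : t * g ^ m = (g ^ m)⁻¹ * t := mul_inv_eq_iff_eq_mul.mp this
    have ht' : t⁻¹ = t := inv_eq_of_mul_eq_one_left D.ht
    calc t * (g ^ m)⁻¹ = t * (g ^ m)⁻¹ * t * t := by
            rw [mul_assoc (t * (g ^ m)⁻¹), D.ht, mul_one]
      _ = t * ((g ^ m)⁻¹ * t) * t := by rw [mul_assoc t]
      _ = t * (t * g ^ m) * t := by rw [h2]
      _ = (t * t) * g ^ m * t := by rw [mul_assoc t t]
      _ = g ^ m * t := by rw [D.ht, one_mul]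
  calc g ^ m * t * (g ^ m)⁻¹ = g ^ m * (t * (g ^ m)⁻¹) := by group
    _ = g ^ m * (g ^ m * t) := by rw [h1]
    _ = g ^ (2 * m) * t := by rw [← mul_assoc, ← pow_add, two_mul]
    _ = g⁻¹ * t := by
        congr 1
        have : g ^ (2 * m) * g = 1 := by
          rw [← pow_succ, ← hm, pow_orderOf_eq_one]
        exact eq_inv_of_mul_eq_one_left this
    _ = i := by
        rw [hg, mul_inv_rev, mul_assoc, inv_mul_cancel, mul_one]
        exact inv_eq_of_mul_eq_one_left hi

/-- A non-trivial `3`-element inverted by `t` gives an element of order `3` inverted by `t`. -/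
lemma exists_order_three [Finite G] {z : G} {r : ℕ} (hz : z ^ 3 ^ r = 1) (hz1 : z ≠ 1)
    (hinv : t * z * t⁻¹ = z⁻¹) : ∃ x : G, orderOf x = 3 ∧ t * x * t⁻¹ = x⁻¹ := by
  have hd : orderOf z ∣ 3 ^ r := orderOf_dvd_of_pow_eq_one hz
  obtain ⟨a, -, ha⟩ := (Nat.dvd_prime_pow Nat.prime_three).mp hd
  have ha0 : a ≠ 0 := by
    rintro rfl
    rw [pow_zero, orderOf_eq_one_iff] at ha
    exact hz1 ha
  have h3 : 3 ∣ orderOf z := by
    rw [ha]
    exact dvd_pow_self 3 ha0
  refine ⟨z ^ (orderOf z / 3), orderOf_pow_orderOf_div (orderOf_pos z).ne' h3, ?_⟩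
  rw [← conj_pow, hinv, inv_pow]

/-- `y` and `v` commuting `3`-elements. -/
lemma three_mul {y v : G} {r s : ℕ} (hc : y * v = v * y) (hy : y ^ 3 ^ r = 1) (hv : v ^ 3 ^ s = 1) :
    (y * v⁻¹) ^ 3 ^ (r + s) = 1 := by
  have hc' : Commute y v⁻¹ := (show Commute y v from hc).inv_right
  rw [hc'.mul_pow, pow_add, pow_mul, hy, one_pow, one_mul, mul_comm, pow_mul, inv_pow, hv, inv_one,
    one_pow]

/-- The local argument. -/
theorem main [Finite G] (D : Data t U) (ht1 : t ≠ 1)
    (hN : ∀ c, c * t = t * c → c ∈ normalizer (U : Set G) →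
      ∃ m : ℕ, Nat.Coprime m 3 ∧ c ^ m ∈ centralizer (U : Set G))
    {y : G} (hyN : y ∈ normalizer (U : Set G)) (hyU : y ∉ U) {r : ℕ} (hy3 : y ^ 3 ^ r = 1) :
    ∃ x : G, orderOf x = 3 ∧ t * x * t⁻¹ = x⁻¹ := by
  have ht' : t⁻¹ = t := inv_eq_of_mul_eq_one_left D.ht
  set i := y * t * y⁻¹ with hi
  have hii : i * i = 1 := by
    rw [hi]
    calc y * t * y⁻¹ * (y * t * y⁻¹) = y * (t * t) * y⁻¹ := by group
      _ = 1 := by rw [D.ht]; group
  have hi1 : i ≠ 1 := by
    intro h
    apply ht1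
    have : y * t * y⁻¹ = 1 := h
    simpa using this
  have hyN' := mem_normalizer_iff.mp hyN
  have hyconj : ∀ u ∈ U, y * u * y⁻¹ ∈ U := fun u hu => (hyN' u).mp hu
  have hyconj' : ∀ u ∈ U, y⁻¹ * u * y ∈ U := by
    intro u hu
    rw [hyN']
    convert hu using 1
    group
  have hiC : i ∈ centralizer (U : Set G) := by
    rw [mem_centralizer_iff]
    intro u hu
    have hu' := hyconj' u hu
    have h1 : (y⁻¹ * u * y) * t = t * (y⁻¹ * u * y) := mem_centralizer_iff.mp D.htU _ hu'
    calc u * i = y * ((y⁻¹ * u * y) * t) * y⁻¹ := by rw [hi]; group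
      _ = y * (t * (y⁻¹ * u * y)) * y⁻¹ := by rw [h1]
      _ = i * u := by rw [hi]; group
  obtain ⟨z, hzC, hzinv, hzt⟩ := D.exists_z hii hi1 hiC
  set c := z⁻¹ * y with hc
  have hct : c * t = t * c := by
    have h1 : c * t * c⁻¹ = t := by
      calc c * t * c⁻¹ = z⁻¹ * i * z := by rw [hc, hi]; group
        _ = z⁻¹ * (z * t * z⁻¹) * z := by rw [hzt]
        _ = t := by group
    exact mul_inv_eq_iff_eq_mul.mp h1
  have hyzc : y = z * c := by rw [hc]; group
  by_cases hyC : y ∈ centralizer (U : Set G)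
  · -- `y` centralizes `U`
    have hcC : c ∈ centralizer (U : Set G) := mul_mem (inv_mem hzC) hyC
    obtain ⟨v, hv, h | h⟩ := D.hCC c hct hcC
    · -- `z = y v⁻¹` is a `3`-element
      obtain ⟨s, hs⟩ := D.hU3 v hv
      have hzyv : z = y * v⁻¹ := by
        rw [← h, hc]; group
      have hyv : y * v = v * y := (mem_centralizer_iff.mp hyC v hv).symm
      have hz3 : z ^ 3 ^ (r + s) = 1 := by
        rw [hzyv]
        exact three_mul hyv hy3 hs
      have hz1 : z ≠ 1 := by
        intro h1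
        apply hyU
        rw [hyzc, h1, one_mul, h]
        exact hv
      exact exists_order_three hz3 hz1 hzinv
    · -- `z t = y v⁻¹` is a `3`-element and an involution
      exfalso
      obtain ⟨s, hs⟩ := D.hU3 v hv
      have hyv : y * v = v * y := (mem_centralizer_iff.mp hyC v hv).symm
      have h3 := three_mul hyv hy3 hs
      have hzt2 : y * v⁻¹ = z * t := by
        rw [hyzc, h]
        group
      have h2 : (y * v⁻¹) * (y * v⁻¹) = 1 := by
        rw [hzt2]
        have h4 : t * z = z⁻¹ * t := mul_inv_eq_iff_eq_mul.mp hzinv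
        calc z * t * (z * t) = z * (t * z) * t := by group
          _ = z * (z⁻¹ * t) * t := by rw [h4]
          _ = t * t := by group
          _ = 1 := D.ht
      have h5 := eq_one_of_sq_of_three h3 h2
      apply hyU
      have : y = v := by
        have := mul_inv_eq_one.mp h5
        exact this
      rw [this]
      exact hv
  · exfalso
    apply hyC
    have hact : ∀ u ∈ U, c * u * c⁻¹ = y * u * y⁻¹ := by
      intro u hu
      have h1 := hyconj u hu
      have h2 : (y * u * y⁻¹) * z = z * (y * u * y⁻¹) := mem_centralizer_iff.mp hzC _ h1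
      calc c * u * c⁻¹ = z⁻¹ * ((y * u * y⁻¹) * z) := by rw [hc]; group
        _ = z⁻¹ * (z * (y * u * y⁻¹)) := by rw [h2]
        _ = y * u * y⁻¹ := by group
    have hcN : c ∈ normalizer (U : Set G) := by
      rw [mem_normalizer_iff]
      intro u
      constructor
      · intro hu
        rw [hact u hu]
        exact hyconj u hu
      · intro hu
        have h2 : (c * u * c⁻¹) * z = z * (c * u * c⁻¹) := mem_centralizer_iff.mp hzC _ hu
        have h3 : y * u * y⁻¹ = c * u * c⁻¹ := by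
          calc y * u * y⁻¹ = z * (c * u * c⁻¹) * z⁻¹ := by rw [hyzc]; group
            _ = (c * u * c⁻¹) * z * z⁻¹ := by rw [h2]
            _ = c * u * c⁻¹ := by group
        rw [hyN', h3]
        exact hu
    obtain ⟨m, hm, hcm⟩ := hN c hct hcN
    -- `y ^ j` acts on `U` as `c ^ j`
    have hpow : ∀ j : ℕ, ∀ u ∈ U, y ^ j * u * (y ^ j)⁻¹ = c ^ j * u * (c ^ j)⁻¹ ∧
        y ^ j * u * (y ^ j)⁻¹ ∈ U := by
      intro j
      induction j with
      | zero =>
        intro u hu
        simpa using hu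
      | succ j ih =>
        intro u hu
        have h1 : y ^ (j + 1) * u * (y ^ (j + 1))⁻¹ = y ^ j * (y * u * y⁻¹) * (y ^ j)⁻¹ := by
          rw [pow_succ]; group
        have h2 : c ^ (j + 1) * u * (c ^ (j + 1))⁻¹ = c ^ j * (c * u * c⁻¹) * (c ^ j)⁻¹ := by
          rw [pow_succ]; group
        have h3 := ih _ (hyconj u hu)
        refine ⟨?_, ?_⟩
        · rw [h1, h2, hact u hu]
          rw [hact u hu] at *
          exact h3.1
        · rw [h1]
          exact h3.2
    have hym : y ^ m ∈ centralizer (U : Set G) := by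
      rw [mem_centralizer_iff]
      intro u hu
      have h1 := (hpow m u hu).1
      have h2 : u * c ^ m = c ^ m * u := mem_centralizer_iff.mp hcm u hu
      have h3 : c ^ m * u * (c ^ m)⁻¹ = u := by rw [← h2]; group
      rw [h3] at h1
      exact (mul_inv_eq_iff_eq_mul.mp h1).symm
    -- Bezout
    have hcop : Nat.Coprime m (3 ^ r) := Nat.Coprime.pow_right r hm
    have hy : y ∈ zpowers (y ^ m) := by
      have h := Nat.gcd_eq_gcd_ab m (3 ^ r)
      rw [hcop.gcd_eq_one, Nat.cast_one] at h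
      have h1 : y = (y ^ m) ^ (Nat.gcdA m (3 ^ r)) := by
        calc y = y ^ (1 : ℤ) := (zpow_one y).symm
          _ = y ^ ((m : ℤ) * Nat.gcdA m (3 ^ r) + ((3 ^ r : ℕ) : ℤ) * Nat.gcdB m (3 ^ r)) := by rw [← h]
          _ = (y ^ m) ^ (Nat.gcdA m (3 ^ r)) := by
            rw [zpow_add, zpow_mul, zpow_mul, zpow_natCast, zpow_natCast, hy3, one_zpow, mul_one]
      exact mem_zpowers_iff.mpr ⟨_, h1.symm⟩
    have hle : zpowers (y ^ m) ≤ centralizer (U : Set G) := by
      rw [zpowers_le]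
      exact hym
    exact hle hy

end Cfsg.Agent.Lib.Gold.ReeCore
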