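import Mathlib
import Cfsg.Prelude.Def_LocalEven
import Cfsg.Agent.Lib.Classical.AltIso
import Cfsg.Agent.Lib.Gold.Sec

/-!
# S2755, groups of Ree type: the centralizer and the Sylow `2`-subgroups
-/

set_option autoImplicit false

namespace Cfsg.Agent.Lib.Gold.ReeHab

open Subgroup Cfsg

variable {G : Type*} [Group G]

/-- The centralizer in the form of S0343. -/
theorem centEquiv {t : G} (ht : orderOf t = 2) {K : Subgroup G}
    (hInt : IsInternalDirectProduct (zpowers t) K (centralizer ({t} : Set G)))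
    {X : Type*} [Group X] (e : K ≃* X) :
    Nonempty (centralizer ({t} : Set G) ≃* Multiplicative (ZMod 2) × X) := by
  classical
  obtain ⟨h1, h2, hcomm, hdisj, hsup⟩ := hInt
  have hZ : ∀ n : ℕ, Nat.card (zpowers t) = n → Nonempty (Multiplicative (ZMod n) ≃* zpowers t) := by
    rintro n rfl
    exact ⟨zmodCyclicMulEquiv inferInstance⟩
  obtain ⟨eZ⟩ := hZ 2 (by rw [Nat.card_zpowers, ht])
  -- the product map
  let S : Subgroup G :=
    { carrier := {x | ∃ a ∈ zpowers t, ∃ k ∈ K, a * k = x}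
      mul_mem' := by
        rintro _ _ ⟨a, ha, k, hk, rfl⟩ ⟨b, hb, l, hl, rfl⟩
        refine ⟨a * b, mul_mem ha hb, k * l, mul_mem hk hl, ?_⟩
        have := hcomm b hb k hk
        symm
        calc a * k * (b * l) = a * (k * b) * l := by group
          _ = a * (b * k) * l := by rw [this]
          _ = a * b * (k * l) := by group
      one_mem' := ⟨1, one_mem _, 1, one_mem _, one_mul 1⟩
      inv_mem' := by
        rintro _ ⟨a, ha, k, hk, rfl⟩
        refine ⟨a⁻¹, inv_mem ha, k⁻¹, inv_mem hk, ?_⟩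
        rw [mul_inv_rev]
        exact hcomm _ (inv_mem ha) _ (inv_mem hk) }
  have hS : zpowers t ⊔ K ≤ S :=
    sup_le (fun a ha => ⟨a, ha, 1, one_mem _, mul_one a⟩) (fun k hk => ⟨1, one_mem _, k, hk, one_mul k⟩)
  let f : zpowers t × K →* centralizer ({t} : Set G) :=
    MonoidHom.noncommCoprod (Subgroup.inclusion h1) (Subgroup.inclusion h2) (fun a k =>
      Subtype.ext (hcomm a a.2 k k.2))
  have hf : ∀ a k, ((f (a, k) : centralizer ({t} : Set G)) : G) = (a : G) * k := fun a k => rfl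
  have hbij : Function.Bijective f := by
    constructor
    · rw [injective_iff_map_eq_one]
      rintro ⟨a, k⟩ h
      have h3 : (a : G) * k = 1 := by
        rw [← hf, h]
        rfl
      have h4 : (a : G) = (k : G)⁻¹ := eq_inv_of_mul_eq_one_left h3
      have h5 : (a : G) ∈ zpowers t ⊓ K := Subgroup.mem_inf.mpr ⟨a.2, by rw [h4]; exact K.inv_mem k.2⟩
      rw [hdisj, Subgroup.mem_bot] at h5
      have h6 : (k : G) = 1 := by
        rw [h5, one_mul] at h3
        exact h3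
      exact Prod.ext (Subtype.ext h5) (Subtype.ext h6)
    · rintro ⟨x, hx⟩
      rw [← hsup] at hx
      obtain ⟨a, ha, k, hk, rfl⟩ := hS hx
      exact ⟨(⟨a, ha⟩, ⟨k, hk⟩), Subtype.ext rfl⟩
  exact ⟨(MulEquiv.ofBijective f hbij).symm.trans (MulEquiv.prodCongr eZ.symm e)⟩

/-- A group of order dividing `4` is commutative. -/
theorem comm_of_card_dvd_four {V : Type*} [Group V] (h : Nat.card V ∣ 4) (a b : V) : a * b = b * a := by
  have h4 : Nat.card V ∈ Nat.divisors 4 := by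
    rw [Nat.mem_divisors]
    exact ⟨h, by norm_num⟩
  have h5 : Nat.divisors 4 = {1, 2, 4} := by decide
  rw [h5] at h4
  simp only [Finset.mem_insert, Finset.mem_singleton] at h4
  rcases h4 with h1 | h2 | h4
  · haveI : Subsingleton V := (Nat.card_eq_one_iff_unique.mp h1).1
    exact Subsingleton.elim _ _
  · haveI : Fact (Nat.Prime 2) := ⟨Nat.prime_two⟩
    haveI : IsCyclic V := isCyclic_of_prime_card h2
    have := IsCyclic.isMulCommutative (α := V)
    exact IsMulCommutative.is_comm.comm a b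
  · haveI : Fact (Nat.Prime 2) := ⟨Nat.prime_two⟩
    have hc : Nat.card V = 2 ^ 2 := by rw [h4]; norm_num
    have := IsPGroup.isMulCommutative_of_card_eq_prime_sq hc
    exact IsMulCommutative.is_comm.comm a b

/-- The `2`-part of `|PSL₂(q)|` for `q ≡ 3 mod 8`. -/
theorem two_part {F : Type*} [Field F] [Fintype F] (hF : Fintype.card F % 8 = 3) (k : ℕ)
    (hk : 2 ^ k ∣ Nat.card (Matrix.ProjectiveSpecialLinearGroup (Fin 2) F)) : 2 ^ k ∣ 4 := by
  have h := Cfsg.Agent.Lib.Classical.AltIso.card_psl_two_mul (F := F)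
  obtain ⟨m, hm⟩ : ∃ m, Fintype.card F = 8 * m + 3 := ⟨Fintype.card F / 8, by omega⟩
  rw [hm] at h
  have hg : Nat.gcd (8 * m + 3 - 1) 2 = 2 := by
    have : 8 * m + 3 - 1 = 2 * (4 * m + 1) := by omega
    rw [this]
    exact Nat.gcd_eq_right (Dvd.intro _ rfl)
  rw [hg] at h
  have h2 : Nat.card (Matrix.ProjectiveSpecialLinearGroup (Fin 2) F) = 4 * ((8 * m + 3) * ((4 * m + 1) * (2 * m + 1))) := by
    have h3 : 8 * m + 3 - 1 = 2 * (4 * m + 1) := by omega
    rw [h3] at h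
    have h4 : 8 * m + 3 + 1 = 4 * (2 * m + 1) := by ring
    rw [h4] at h
    have h5 : Nat.card (Matrix.ProjectiveSpecialLinearGroup (Fin 2) F) * 2 =
        (4 * ((8 * m + 3) * ((4 * m + 1) * (2 * m + 1)))) * 2 := by
      rw [h]; ring
    exact Nat.eq_of_mul_eq_mul_right (by norm_num) h5
  rw [h2] at hk
  have hodd : Nat.Coprime (2 ^ k) ((8 * m + 3) * ((4 * m + 1) * (2 * m + 1))) := by
    apply Nat.Coprime.pow_left
    rw [Nat.coprime_two_left]
    apply Odd.mul (by exact ⟨4 * m + 1, by ring⟩)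
    apply Odd.mul ⟨2 * m, by ring⟩ ⟨m, by ring⟩
  exact hodd.dvd_of_dvd_mul_right hk

/-- All Sylow `2`-subgroups are abelian. -/
theorem sylow_abelian [Finite G] {t : G} (hodd : Odd (centralizer ({t} : Set G)).index)
    {F : Type*} [Field F] [Fintype F]
    (hC : Nonempty (centralizer ({t} : Set G) ≃* Multiplicative (ZMod 2) ×
      Matrix.ProjectiveSpecialLinearGroup (Fin 2) F))
    (hF : Fintype.card F % 8 = 3) (P : Sylow 2 G) (a b : P) : a * b = b * a := by
  classical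
  haveI : Fact (Nat.Prime 2) := ⟨Nat.prime_two⟩
  obtain ⟨e⟩ := hC
  set C := centralizer ({t} : Set G) with hCdef
  -- a fixed point of `P` on `G / C`
  have hnd : ¬ 2 ∣ Nat.card (G ⧸ C) := by
    rw [← Subgroup.index_eq_card]
    intro h
    exact (Nat.not_even_iff_odd.mpr hodd) (even_iff_two_dvd.mpr h)
  obtain ⟨x, hx⟩ := IsPGroup.nonempty_fixed_point_of_prime_not_dvd_card P.2 (G ⧸ C) hnd
  obtain ⟨g, rfl⟩ := QuotientGroup.mk_surjective x
  have hgP : ∀ p ∈ (P : Subgroup G), g⁻¹ * p * g ∈ C := by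
    intro p hp
    have h1 := hx ⟨p, hp⟩
    have h2 : ((p • g : G) : G ⧸ C) = (g : G ⧸ C) := h1
    rw [eq_comm, QuotientGroup.eq] at h2
    have h3 : g⁻¹ * (p • g) = g⁻¹ * p * g := by
      rw [smul_eq_mul]
      group
    rwa [h3] at h2
  -- the image of `P` in `PSL₂`
  let π : C →* Matrix.ProjectiveSpecialLinearGroup (Fin 2) F :=
    (MonoidHom.snd _ _).comp e.toMonoidHom
  let R : Subgroup C := ((P : Subgroup G).map (MulAut.conj g⁻¹).toMonoidHom).subgroupOf C
  have hRmem : ∀ p ∈ (P : Subgroup G), ∀ hc : g⁻¹ * p * g ∈ C, (⟨g⁻¹ * p * g, hc⟩ : C) ∈ R := by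
    intro p hp hc
    rw [Subgroup.mem_subgroupOf]
    refine ⟨p, hp, ?_⟩
    simp
  have hR2 : ∀ r : C, r ∈ R → ∃ k : ℕ, r ^ 2 ^ k = 1 := by
    intro r hr
    rw [Subgroup.mem_subgroupOf] at hr
    obtain ⟨p, hp, hpr⟩ := hr
    obtain ⟨k, hk⟩ := P.2 ⟨p, hp⟩
    refine ⟨k, Subtype.ext ?_⟩
    have h1 : p ^ 2 ^ k = 1 := by
      have := congrArg Subtype.val hk
      simpa using this
    have h2 : ((r ^ 2 ^ k : C) : G) = (r : G) ^ 2 ^ k := by simp
    rw [h2, ← hpr, ← map_pow, h1, map_one]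
    rfl
  let V : Subgroup (Matrix.ProjectiveSpecialLinearGroup (Fin 2) F) := R.map π
  have hVp : IsPGroup 2 V := by
    rintro ⟨v, r, hr, rfl⟩
    obtain ⟨k, hk⟩ := hR2 r hr
    refine ⟨k, Subtype.ext ?_⟩
    have : (π r) ^ 2 ^ k = 1 := by rw [← map_pow, hk, map_one]
    simpa using this
  obtain ⟨k, hk⟩ := IsPGroup.iff_card.mp hVp
  have hV4 : Nat.card V ∣ 4 := by
    rw [hk]
    apply two_part hF
    rw [← hk]
    exact Subgroup.card_subgroup_dvd_card V
  -- commutation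
  have ha : g⁻¹ * (a : G) * g ∈ C := hgP a a.2
  have hb : g⁻¹ * (b : G) * g ∈ C := hgP b b.2
  let a' : C := ⟨_, ha⟩
  let b' : C := ⟨_, hb⟩
  have haR : a' ∈ R := hRmem a a.2 ha
  have hbR : b' ∈ R := hRmem b b.2 hb
  have hV := comm_of_card_dvd_four hV4 ⟨π a', Subgroup.mem_map_of_mem π haR⟩ ⟨π b', Subgroup.mem_map_of_mem π hbR⟩
  have hV' : (e a').2 * (e b').2 = (e b').2 * (e a').2 := congrArg Subtype.val hV
  have hZ : (e a').1 * (e b').1 = (e b').1 * (e a').1 := mul_comm _ _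
  have h1 : e (a' * b') = e (b' * a') := by
    rw [map_mul, map_mul]
    exact Prod.ext hZ hV'
  have h2 := congrArg Subtype.val (e.injective h1)
  have h3 : g⁻¹ * (a : G) * g * (g⁻¹ * (b : G) * g) = g⁻¹ * (b : G) * g * (g⁻¹ * (a : G) * g) := h2
  apply Subtype.ext
  show (a : G) * b = b * a
  have h4 : g⁻¹ * ((a : G) * b) * g = g⁻¹ * ((b : G) * a) * g := by
    calc g⁻¹ * ((a : G) * b) * g = g⁻¹ * (a : G) * g * (g⁻¹ * (b : G) * g) := by group
      _ = g⁻¹ * (b : G) * g * (g⁻¹ * (a : G) * g) := h3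
      _ = g⁻¹ * ((b : G) * a) * g := by group
  exact mul_left_cancel (mul_right_cancel h4)

/-- `3 ^ (2 n + 1) ≡ 3 mod 8`. -/
theorem three_pow_mod (n : ℕ) : 3 ^ (2 * n + 1) % 8 = 3 := by
  induction n with
  | zero => norm_num
  | succ n ih =>
    have : 3 ^ (2 * (n + 1) + 1) = 3 ^ (2 * n + 1) * 9 := by ring
    rw [this]
    omega

/-- Groups of Ree type: the data for S0343, and `S₄`-freeness. -/
theorem ree_data {G : Type*} [Group G] [Finite G] (hR : IsReeType G) :
    ∃ (t : G) (K : Subgroup G) (n : ℕ) (F : Type) (_ : Field F) (_ : Fintype F),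
      1 ≤ n ∧ orderOf t = 2 ∧ Odd (centralizer ({t} : Set G)).index ∧
      IsInternalDirectProduct (zpowers t) K (centralizer ({t} : Set G)) ∧
      Fintype.card F = 3 ^ (2 * n + 1) ∧ Nonempty (K ≃* Matrix.ProjectiveSpecialLinearGroup (Fin 2) F) ∧
      Nonempty (centralizer ({t} : Set G) ≃* Multiplicative (ZMod 2) × Matrix.ProjectiveSpecialLinearGroup (Fin 2) F) ∧
      (∀ P : Sylow 2 G, ∀ a b : P, a * b = b * a) := by
  obtain ⟨-, -, t, K, n, hn, ht, hodd, hInt, F, iF, fF, hF, ⟨e⟩⟩ := hR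
  have hC := centEquiv ht hInt e
  refine ⟨t, K, n, F, iF, fF, hn, ht, hodd, hInt, hF, ⟨e⟩, hC, ?_⟩
  intro P a b
  exact sylow_abelian hodd hC (by rw [hF]; exact three_pow_mod n) P a b

/-- Groups of Ree type are `S₄`-free. -/
theorem not_s4 {G : Type*} [Group G] [Finite G] (hR : IsReeType G) :
    ¬ Involves (Equiv.Perm (Fin 4)) G := by
  obtain ⟨t, K, n, F, iF, fF, hn, ht, hodd, hInt, hF, he, hC, hab⟩ := ree_data hR
  apply Cfsg.Agent.Lib.Gold.Sec.not_involves_s4_of_abelian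
  intro P x hx y hy
  exact congrArg Subtype.val (hab P ⟨x, hx⟩ ⟨y, hy⟩)

end Cfsg.Agent.Lib.Gold.ReeHab
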