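import Cfsg.Agent.Lib.SzIso.Basic
import Cfsg.Prelude.Def_LocalEven

/-!
S2755, module [Sz]: three does not divide the order of a Suzuki group; so neither `S₃` nor `S₄` is involved.
-/

set_option autoImplicit false

namespace Cfsg.Agent.Lib.Gold.SzCase

open Cfsg

/-- `3 ∤ |Sz(q)|`. -/
theorem three_not_dvd {G : Type*} [Group G] (h : Lie.IsoSuzuki G) : ¬ 3 ∣ Nat.card G := by
  obtain ⟨F, _, _, m, hm, hF, ⟨e⟩⟩ := h
  rw [Nat.card_congr e.toEquiv, Cfsg.Agent.Lib.SzIso.Basic.card_LieSz hm hF]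
  have h4 : 4 ^ m % 3 = 1 := by
    rw [Nat.pow_mod]
    simp
  have hq : 2 ^ (2 * m + 1) % 3 = 2 := by
    rw [pow_succ, pow_mul, Nat.mul_mod]
    norm_num [h4]
  generalize 2 ^ (2 * m + 1) = q at hq
  have hq2 : q ^ 2 % 3 = 1 := by
    rw [Nat.pow_mod, hq]
  intro hd
  rcases (Nat.Prime.dvd_mul Nat.prime_three).1 hd with h1 | h1
  · rcases (Nat.Prime.dvd_mul Nat.prime_three).1 h1 with h2 | h2
    · omega
    · omega
  · omega

/-- If `3 ∤ |G|` a group with order divisible by `3` is not involved. -/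
theorem not_involves_of_not_dvd {G H : Type*} [Group G] [Finite G] [Group H] (h3 : ¬ 3 ∣ Nat.card G)
    (hH : 3 ∣ Nat.card H) : ¬ Involves H G := by
  rintro ⟨K, R, hn, ⟨e⟩⟩
  apply h3
  refine hH.trans ?_
  rw [← Nat.card_congr e.toEquiv]
  refine dvd_trans ?_ (Subgroup.card_subgroup_dvd_card K)
  exact Subgroup.card_quotient_dvd_card _

/-- The Suzuki groups do not involve `S₃`. -/
theorem not_involves_s3 {G : Type*} [Group G] [Finite G] (h : Lie.IsoSuzuki G) :
    ¬ Involves (Equiv.Perm (Fin 3)) G :=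
  not_involves_of_not_dvd (three_not_dvd h) (by rw [Nat.card_eq_fintype_card, Fintype.card_perm, Fintype.card_fin]; decide)

/-- The Suzuki groups do not involve `S₄`. -/
theorem not_involves_s4 {G : Type*} [Group G] [Finite G] (h : Lie.IsoSuzuki G) :
    ¬ Involves (Equiv.Perm (Fin 4)) G :=
  not_involves_of_not_dvd (three_not_dvd h) (by rw [Nat.card_eq_fintype_card, Fintype.card_perm, Fintype.card_fin]; decide)

/-- The form wanted by `Wrap`. -/
theorem sz_case {X : Type*} [Group X] [Finite X] (h : Lie.IsoSuzuki X) :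
    ¬ Involves (Equiv.Perm (Fin 4)) X ∧ ¬ Involves (Equiv.Perm (Fin 3)) X :=
  ⟨not_involves_s4 h, not_involves_s3 h⟩

end Cfsg.Agent.Lib.Gold.SzCase
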