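import Cfsg.Prelude.Def_LocalEven

/-!
# S2755, the case split

The case split of the statement, with the cases as hypotheses.
-/

set_option autoImplicit false

namespace Cfsg.Agent.Lib.Gold.Wrap

open Cfsg

/-- `H` is involved in `G` iff a subgroup of `G` maps onto `H`. -/
lemma involves_iff' {H G : Type*} [Group H] [Group G] :
    Involves H G ↔ ∃ (K : Subgroup G) (f : K →* H), Function.Surjective f := by
  constructor
  · rintro ⟨K, R, hR, ⟨e⟩⟩
    exact ⟨K, e.toMonoidHom.comp (QuotientGroup.mk' (R.subgroupOf K)),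
      e.surjective.comp (QuotientGroup.mk'_surjective _)⟩
  · rintro ⟨K, f, hf⟩
    have hR : (f.ker.map K.subtype).subgroupOf K = f.ker := by
      rw [Subgroup.subgroupOf, Subgroup.comap_map_eq_self_of_injective K.subtype_injective]
    have hN : ((f.ker.map K.subtype).subgroupOf K).Normal := by rw [hR]; infer_instance
    refine ⟨K, f.ker.map K.subtype, hN, ⟨?_⟩⟩
    exact (QuotientGroup.quotientMulEquivOfEq hR).trans (QuotientGroup.quotientKerEquivOfSurjective f hf)

lemma involves_of_surjective' {H G G' : Type*} [Group H] [Group G] [Group G'] (h : Involves H G') (f : G →* G')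
    (hf : Function.Surjective f) : Involves H G := by
  rw [involves_iff'] at h ⊢
  obtain ⟨K, g, hg⟩ := h
  refine ⟨K.comap f, g.comp (f.subgroupComap K), hg.comp ?_⟩
  exact f.subgroupComap_surjective_of_surjective K hf

/-- `Involves` transports along an isomorphism of the big group. -/
theorem involves_congr {H G X : Type*} [Group H] [Group G] [Group X] (e : G ≃* X) :
    Involves H G ↔ Involves H X :=
  ⟨fun h => involves_of_surjective' h e.symm.toMonoidHom e.symm.surjective,
    fun h => involves_of_surjective' h e.toMonoidHom e.surjective⟩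

local notation "S3" => Equiv.Perm (Fin 3)
local notation "S4" => Equiv.Perm (Fin 4)

/-- The case split. The statements in the first group are about explicit families, the others
about `G`. -/
theorem wrap {G : Type*} [Group G] [Finite G]
    (hL3 : ∀ (F : Type) [Field F] [Fintype F] (n : ℕ), Fintype.card F = 3 ^ (2 * n + 1) →
      ¬ Involves S3 (Matrix.ProjectiveSpecialLinearGroup (Fin 2) F))
    (hLodd : ∀ (F : Type) [Field F] [Fintype F] (q : ℕ), Fintype.card F = q → 5 ≤ q → (q % 8 = 3 ∨ q % 8 = 5) →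
      ¬ Involves S4 (Matrix.ProjectiveSpecialLinearGroup (Fin 2) F) ∧
        (Involves S3 (Matrix.ProjectiveSpecialLinearGroup (Fin 2) F) ∨ ∃ n : ℕ, Fintype.card F = 3 ^ (2 * n + 1)))
    (hLeven : ∀ (F : Type) [Field F] [Fintype F] (n : ℕ), 3 ≤ n → Fintype.card F = 2 ^ n →
      ¬ Involves S4 (Matrix.ProjectiveSpecialLinearGroup (Fin 2) F) ∧
        Involves S3 (Matrix.ProjectiveSpecialLinearGroup (Fin 2) F))
    (hU3 : ∀ (F : Type) [Field F] [Fintype F] (n : ℕ), 2 ≤ n → Fintype.card F = 4 ^ n →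
      ¬ Involves S4 (PSU 3 F (2 ^ n)) ∧ Involves S3 (PSU 3 F (2 ^ n)))
    (hSz : Lie.IsoSuzuki G → ¬ Involves S4 G ∧ ¬ Involves S3 G)
    (hJ1 : Spor.IsoJ1 G → ¬ Involves S4 G ∧ Involves S3 G)
    (hRee : IsReeType G → ¬ Involves S4 G ∧ Involves S3 G)
    (hG : IsGoldschmidtGroup G) :
    ¬ Involves S4 G ∧ (¬ Involves S3 G ↔ IsSuzukiOrPSL2OddPowerThree G) := by
  -- the backward implication of the iff holds for all `G`
  have hback : IsSuzukiOrPSL2OddPowerThree G → ¬ Involves S3 G := by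
    rintro (hS | ⟨F, _, _, n, hn, ⟨e⟩⟩)
    · exact (hSz hS).2
    · rw [involves_congr e]
      exact hL3 F n hn
  suffices h : ¬ Involves S4 G ∧ (Involves S3 G ∨ IsSuzukiOrPSL2OddPowerThree G) by
    refine ⟨h.1, fun h3 => ?_, hback⟩
    exact h.2.resolve_left h3
  rcases hG with hR | ⟨F, _, _, n, hn, hF, ⟨e⟩⟩ | hS | ⟨F, _, _, n, hn, hF, ⟨e⟩⟩ | ⟨F, _, _, q, hF, hq, hq8, ⟨e⟩⟩ | hJ
  · exact ⟨(hRee hR).1, Or.inl (hRee hR).2⟩
  · have h := hLeven F n hn hF
    rw [involves_congr e, involves_congr e]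
    exact ⟨h.1, Or.inl h.2⟩
  · exact ⟨(hSz hS).1, Or.inr (Or.inl hS)⟩
  · have h := hU3 F n hn hF
    rw [involves_congr e, involves_congr e]
    exact ⟨h.1, Or.inl h.2⟩
  · have h := hLodd F q hF hq hq8
    refine ⟨by rw [involves_congr e]; exact h.1, ?_⟩
    rcases h.2 with h3 | ⟨k, hk⟩
    · left
      rw [involves_congr e]
      exact h3
    · right
      exact Or.inr ⟨F, _, _, k, hk, ⟨e⟩⟩
  · exact ⟨(hJ1 hJ).1, Or.inl (hJ1 hJ).2⟩

end Cfsg.Agent.Lib.Gold.Wrap
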